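import Mathlib
import Cfsg.Agent.H06.W0

/-! Part Pu of S5568: a subgroup whose non-identity elements are all duads has order at most four. -/

set_option autoImplicit false
open Cfsg BG Subgroup L.Fz

namespace H08.WP
universe u

theorem pu : Cfsg.Agent.H06.W.PuStmt.{u} := by
  intro G _ _ M D Ω τ σ t I h
  have meet : ∀ i j k l, i ≠ j → k ≠ l → τ i j ∈ I → τ k l ∈ I → i = k ∨ i = l ∨ j = k ∨ j = l := fun i j k l a b c d => by
    by_contra n
    simp only [not_or] at n
    obtain ⟨n1, n2, n3, n4⟩ := n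
    refine t.non i j k l a n1 n2 n3 n4 b (h _ (mul_mem c d) fun e => ?_)
    have e' : τ i j = τ k l := by
      have : τ k l * τ k l = 1 := by nth_rw 2 [t.symm k l]; rw [t.mul, t.refl]
      exact mul_right_cancel (e.trans this.symm)
    rcases t.inj i j k l a e' with k | k
    exacts [n1 k.1, n2 k.1]
  have ex : ∀ a b c d : G, (I : Set G) ⊆ {a, b, c, d} → Nat.card I ≤ 4 := fun a b c d s => by
    have c1 := Set.ncard_le_ncard s (Set.toFinite _)
    have c3 : ({a, b, c, d} : Set G).ncard ≤ 4 :=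
      (Set.ncard_insert_le _ _).trans (Nat.succ_le_succ ((Set.ncard_insert_le _ _).trans (Nat.succ_le_succ
        ((Set.ncard_insert_le _ _).trans (by rw [Set.ncard_singleton])))))
    rw [← Nat.card_coe_set_eq] at c1
    exact c1.trans c3
  have fin : ∀ p q r, p ≠ q → p ≠ r → q ≠ r → τ p q ∈ I → τ p r ∈ I → Nat.card I ≤ 4 := fun p q r a b c i j => by
    have k : τ q r ∈ I := by rw [← t.mul q p r, t.symm q p]; exact mul_mem i j
    refine ex 1 (τ p q) (τ p r) (τ q r) fun x hx => ?_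
    simp only [Set.mem_insert_iff, Set.mem_singleton_iff]
    by_cases x1 : x = 1
    · exact .inl x1
    obtain ⟨u, v, uv, rfl⟩ := t.surj x (h x hx x1)
    have m1 := meet u v p q uv a hx i
    have m2 := meet u v p r uv b hx j
    have m3 := meet u v q r uv c hx k
    have s1 := t.symm p q
    have s2 := t.symm p r
    have s3 := t.symm q r
    grind
  by_cases a : ∃ x ∈ I, x ≠ 1
  swap
  · push Not at a
    exact ex 1 1 1 1 fun x hx => .inl (a x hx)
  obtain ⟨x, hx, x1⟩ := a
  by_cases b : ∃ y ∈ I, y ≠ 1 ∧ y ≠ x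
  swap
  · push Not at b
    refine ex 1 x 1 1 fun y hy => ?_
    by_cases y1 : y = 1
    exacts [.inl y1, .inr (.inl (b y hy y1))]
  obtain ⟨y, hy, y1, yx⟩ := b
  obtain ⟨i, j, ij, rfl⟩ := t.surj x (h x hx x1)
  obtain ⟨k, l, kl, rfl⟩ := t.surj y (h y hy y1)
  rcases meet i j k l ij kl hx hy with rfl | rfl | rfl | rfl
  · exact fin i j l ij kl (fun e => yx (e ▸ rfl)) hx hy
  · exact fin i j k ij kl.symm (fun e => yx (e ▸ t.symm _ _)) hx (t.symm k i ▸ hy)
  · exact fin j i l ij.symm kl (fun e => yx (e ▸ t.symm _ _)) (t.symm i j ▸ hx) hy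
  · exact fin j i k ij.symm kl.symm (fun e => yx (e ▸ rfl)) (t.symm i j ▸ hx) (t.symm k j ▸ hy)

end H08.WP
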