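import Cfsg.Agent.L.Fz0

/-!
# Part N of the analysis of `N(J(T))` in groups of large Fischer type
-/

set_option autoImplicit false

namespace H08.FzN
open Subgroup L.Fz

universe u
variable {G : Type u} [Group G]

theorem cj {P Q : G → Prop} (m : G) (h : ∀ x, P x ↔ Q (m * x * m⁻¹)) : {x | P x}.ncard = {x | Q x}.ncard :=
  Set.ncard_congr' (Equiv.subtypeEquiv (MulAut.conj m).toEquiv h)

theorem ml {P Q : G → Prop} (m : G) (h : ∀ x, P x ↔ Q (m * x)) : {x | P x}.ncard = {x | Q x}.ncard :=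
  Set.ncard_congr' (Equiv.subtypeEquiv (Equiv.mulLeft m) h)

theorem dc [Finite G] {X Y : Set G} (R : G → G → Prop) (a b : ℕ) (h1 : ∀ x ∈ X, {y | y ∈ Y ∧ R x y}.ncard = a)
    (h2 : ∀ y ∈ Y, {x | x ∈ X ∧ R x y}.ncard = b) : X.ncard * a = Y.ncard * b := by
  classical
  have := Fintype.ofFinite G
  rw [Set.ncard_eq_toFinset_card', Set.ncard_eq_toFinset_card']
  refine Finset.card_mul_eq_card_mul R (fun x hx => ?_) fun y hy => ?_
  · rw [← h1 x (by simpa using hx), Set.ncard_eq_toFinset_card']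
    congr 1; ext; simp
  · rw [← h2 y (by simpa using hy), Set.ncard_eq_toFinset_card']
    congr 1; ext; simp

theorem n : NStmt.{u} := by
  intro G _ _ A M B D z h k
  have cm (x) (hx : x ∈ A) (y) (hy : y ∈ A) : x * y = y * x := by
    have a := h.sq _ (mul_mem hx hy)
    rw [← inv_eq_of_mul_eq_one_right a, mul_inv_rev, inv_eq_of_mul_eq_one_right (h.sq x hx), inv_eq_of_mul_eq_one_right (h.sq y hy)]
  have Di (m) (hm : m ∈ M) (x) : x ∈ D ↔ m * x * m⁻¹ ∈ D :=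
    ⟨h.Dc m hm x, fun q => by simpa [mul_assoc] using h.Dc _ (inv_mem hm) _ q⟩
  have Ai (m) (hm : m ∈ M) (x) : x ∈ A ↔ m * x * m⁻¹ ∈ A :=
    ⟨h.nM m hm x, fun q => by simpa [mul_assoc] using h.nM _ (inv_mem hm) _ q⟩
  have Bi (m) (hm : m ∈ M) (e : m * z * m⁻¹ = z) (x) : x ∈ B ↔ m * x * m⁻¹ ∈ B :=
    ⟨h.nB m hm e x, fun q => by simpa [mul_assoc] using h.nB _ (inv_mem hm) (by nth_rw 1 [← e]; group) _ q⟩
  set Z : Set G := {x | x ∈ A ∧ x ≠ 1 ∧ x ∉ D} with hZ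
  have Zi (m) (hm : m ∈ M) (x) : x ∈ Z ↔ m * x * m⁻¹ ∈ Z := by
    simp only [hZ, Set.mem_setOf_eq, ← Ai m hm, ← Di m hm, ne_eq, conj_eq_one_iff]
  have cA : (A : Set G).ncard = 2048 := h.cA
  have cB : (B : Set G).ncard = 128 := h.cB
  have cZ : D.ncard + Z.ncard = 2047 := by
    have a := Set.ncard_inter_add_ncard_diff_eq_ncard (A : Set G) D
    rw [Set.inter_eq_right.2 fun t ht => (h.DA t ht).1, show (A : Set G) \ D = insert 1 Z from Set.ext fun x => ⟨fun q => by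
      by_cases e : x = 1
      exacts [.inl e, .inr ⟨q.1, e, q.2⟩], by
        rintro (rfl | q)
        exacts [⟨one_mem A, fun q => (h.DA _ q).2 rfl⟩, ⟨q.1, q.2.2⟩]⟩, Set.ncard_insert_of_notMem fun q => q.2.1 rfl] at a
    omega
  obtain ⟨t0, t1, t2⟩ := h.exD
  have e1 := dc (X := Z) (Y := D) (fun x t => ∃ m ∈ M, m * z * m⁻¹ = x ∧ m⁻¹ * t * m ∈ B) 36
    {x | x ∈ Z ∧ ∃ m ∈ M, m * z * m⁻¹ = x ∧ m⁻¹ * t0 * m ∈ B}.ncard (fun x hx => by
    obtain ⟨m, hm, rfl⟩ := h.trZ x hx.1 hx.2.1 hx.2.2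
    refine (cj m fun t => and_congr (Di m hm t) ⟨fun q => ⟨m, hm, rfl, by simpa [mul_assoc] using q⟩, fun ⟨l, hl, q1, q2⟩ => ?_⟩).symm.trans k.c36
    have := h.nB _ (mul_mem (inv_mem hm) hl) (by
      calc _ = m⁻¹ * (l * z * l⁻¹) * m := by group
        _ = z := by rw [q1]; group) _ q2
    simpa [mul_assoc] using this) fun t ht => by
      obtain ⟨m, hm, rfl⟩ := h.trD t0 t1 t ht
      refine (cj m fun x => and_congr (Zi m hm x) ⟨fun ⟨l, hl, q1, q2⟩ => ⟨m * l, mul_mem hm hl, by rw [← q1]; group, ?_⟩,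
        fun ⟨l, hl, q1, q2⟩ => ⟨m⁻¹ * l, mul_mem (inv_mem hm) hl, ?_, ?_⟩⟩).symm
      · simpa [mul_assoc] using q2
      · calc _ = m⁻¹ * (l * z * l⁻¹) * m := by group
          _ = x := by rw [q1]; group
      · simpa [mul_assoc] using q2
  obtain ⟨x0, x1, x2⟩ : ∃ x ∈ A, x ∉ B := by
    by_contra q
    push Not at q
    have := Set.ncard_le_ncard (show (A : Set G) ⊆ B from q)
    omega
  have e2 := dc (X := (A : Set G) \ B) (Y := D \ B) (fun x t => t * x ∈ B) {t | t ∈ D \ B ∧ t * x0 ∈ B}.ncard 128 (fun x hx => by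
    obtain ⟨m, hm, q1, q2⟩ := h.cos x0 x1 x2 x hx.1 hx.2
    refine (cj m fun t => and_congr (and_congr (Di m hm t) (Bi m hm q1 t).not) ((Bi m hm q1 _).trans ?_)).symm
    rw [← B.mul_mem_cancel_right q2]
    rw [show m * (t * x0) * m⁻¹ * (m * x0 * m⁻¹ * x) = m * t * (x0 * x0) * m⁻¹ * x by group, h.sq x0 x1, mul_one]) fun t ht => by
      refine (ml t fun x => ⟨fun q => q.2, fun q => ⟨⟨?_, fun r => ht.2 ((B.mul_mem_cancel_right r).1 q)⟩, q⟩⟩).trans cB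
      exact (A.mul_mem_cancel_left (h.DA t ht.1).1).1 (h.BA q)
  have a1 := Set.ncard_inter_add_ncard_diff_eq_ncard (A : Set G) B
  rw [Set.inter_eq_right.2 h.BA] at a1
  have a2 := Set.ncard_inter_add_ncard_diff_eq_ncard D B
  have a3 : (D ∩ B).ncard = 36 := k.c36
  have ev : 2 ∣ D.ncard := by
    by_contra q
    obtain ⟨P, p1, p2, p3⟩ := h.cQ
    have := Fact.mk Nat.prime_two
    let _ : MulAction P D :=
      { smul := fun m t => ⟨m * t * (m : G)⁻¹, h.Dc _ (p1 m.2) _ t.2⟩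
        one_smul := fun t => Subtype.ext (show (1 : G) * t * 1⁻¹ = t by simp)
        mul_smul := fun a b t => Subtype.ext (show (a * b : G) * t * (a * b : G)⁻¹ = a * (b * t * (b : G)⁻¹) * (a : G)⁻¹ by group) }
    obtain ⟨t, ht⟩ := p2.nonempty_fixed_point_of_prime_not_dvd_card D q
    rcases p3 t (h.DA _ t.2).1 fun m hm => mul_inv_eq_iff_eq_mul.1 (congrArg Subtype.val (ht ⟨m, hm⟩)) with r | r
    exacts [(h.DA _ t.2).2 r, h.zD (r ▸ t.2)]
  have n36 : D.ncard ≠ 36 := fun q => by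
    have DB : D ⊆ B := Set.inter_eq_left.1 (Set.eq_of_subset_of_ncard_le Set.inter_subset_left (by omega))
    by_cases r : x0 ∈ D
    · exact x2 (DB r)
    obtain ⟨m, hm, rfl⟩ := h.trZ x0 x1 (fun e => x2 (e ▸ one_mem B)) r
    have := mul_mem (DB (h.Dc m hm _ t1)) (DB (h.Dc m hm _ (h.Bz _ t1 t2)))
    rw [show m * t0 * m⁻¹ * (m * (t0 * z) * m⁻¹) = m * (t0 * t0 * z) * m⁻¹ by group, h.sq _ (h.DA _ t1).1, one_mul] at this
    exact x2 this
  have d : D.ncard = 276 := by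
    generalize Set.ncard {x | x ∈ Z ∧ _} = kk at e1
    generalize Set.ncard {x | x ∈ D \ B ∧ _} = j at e2
    have r1 : D.ncard = 36 + 15 * j := by
      rw [show ((A : Set G) \ B).ncard = 1920 by omega] at e2
      omega
    have r2 : D.ncard ∣ 36 * 2047 := ⟨kk + 36, by rw [mul_add, ← e1]; omega⟩
    have r3 : j < 135 := by omega
    rw [r1] at r2 ev n36 ⊢
    clear * - r2 ev n36 r3
    interval_cases j <;> omega
  have e3 := dc (X := Z) (Y := D) (fun x t => t * x ∈ D) {t | t ∈ D ∧ t * z ∈ D}.ncard {x | x ∈ Z ∧ t0 * x ∈ D}.ncard (fun x hx => by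
    obtain ⟨m, hm, rfl⟩ := h.trZ x hx.1 hx.2.1 hx.2.2
    exact (cj (P := fun t => t ∈ D ∧ t * z ∈ D) m fun t => and_congr (Di m hm t) ((Di m hm _).trans (by rw [conj_mul]))).symm)
    fun t ht => by
      obtain ⟨m, hm, rfl⟩ := h.trD t0 t1 t ht
      exact (cj (P := fun x => x ∈ Z ∧ t0 * x ∈ D) m fun x => and_congr (Zi m hm x) ((Di m hm _).trans (by rw [conj_mul]))).symm
  have sub : {t | t ∈ D ∧ t ∈ B} ⊆ {t | t ∈ D ∧ t * z ∈ D} := fun t ht => ⟨ht.1, h.Bz t ht.1 ht.2⟩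
  have l1 := Set.ncard_le_ncard sub
  rw [k.c36] at l1
  have e4 : {s | s ∈ D ∧ s * t0 ∈ D}.ncard + ({x | x ∈ Z ∧ t0 * x ∈ D}.ncard + 1) = 276 := by
    have a := Set.ncard_inter_add_ncard_diff_eq_ncard {x | t0 * x ∈ D} D
    rw [ml (Q := (· ∈ D)) t0 fun _ => Iff.rfl, show {x | t0 * x ∈ D} ∩ D = {s | s ∈ D ∧ s * t0 ∈ D} from Set.ext fun x =>
      ⟨fun q => ⟨q.2, cm _ (h.DA _ t1).1 _ (h.DA _ q.2).1 ▸ q.1⟩, fun q => ⟨show t0 * x ∈ D from cm _ (h.DA _ q.1).1 _ (h.DA _ t1).1 ▸ q.2, q.1⟩⟩,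
      show {x | t0 * x ∈ D} \ D = insert 1 {x | x ∈ Z ∧ t0 * x ∈ D} from Set.ext fun x => ⟨fun q => by
        by_cases e : x = 1
        exacts [.inl e, .inr ⟨⟨(A.mul_mem_cancel_left (h.DA _ t1).1).1 (h.DA _ q.1).1, e, q.2⟩, q.1⟩], by
          rintro (rfl | q)
          exacts [⟨by simpa using t1, fun q => (h.DA _ q).2 rfl⟩, ⟨q.2, q.1.2.2⟩]⟩, Set.ncard_insert_of_notMem fun q => q.1.2.1 rfl] at a
    exact a.trans d
  rw [d, show Z.ncard = 1771 by omega] at e3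
  refine ⟨d, fun t ht q => ((Set.eq_of_subset_of_ncard_le sub (by rw [k.c36]; omega)).ge ⟨ht, q⟩).2, fun t ht => ?_⟩
  obtain ⟨m, hm, rfl⟩ := h.trD t0 t1 t ht
  exact (cj (P := fun s => s ∈ D ∧ s * t0 ∈ D) m fun x => and_congr (Di m hm x) ((Di m hm _).trans (by rw [conj_mul]))).symm.trans (by omega)

end H08.FzN
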