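import Cfsg.Agent.H06.J0

/-!
# Part L of S5566: lifting the hexad subgroup to the triple cover
-/

set_option autoImplicit false

namespace H08.JL
open Cfsg Subgroup Cfsg.Agent.H06.J

universe u

theorem l : LStmt.{u} := by
  intro Γ _ _ d M ρ K₀ Y₀ d3 dM Md dc sur ker h hi
  let D : M := ⟨d, dM⟩
  have D3 : D ^ 3 = 1 := Subtype.ext (by simpa [pow_succ, mul_assoc] using d3)
  have Dc (g : M) : Commute g D := Subtype.ext (Md g g.2)
  have kr (m : M) : ρ m = 1 ↔ m ∈ zpowers D := (ker m).trans ⟨fun ⟨k, e⟩ => ⟨k, Subtype.ext (by simpa using e)⟩,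
    fun ⟨k, e⟩ => ⟨k, by simpa using congrArg Subtype.val e⟩⟩
  have k3 (m : M) (hm : ρ m = 1) : m ^ 3 = 1 ∧ ∀ g : M, Commute g m := by
    obtain ⟨k, rfl⟩ := (kr m).1 hm
    exact ⟨by rw [← zpow_natCast, zpow_comm, zpow_natCast, D3, one_zpow], fun g => (Dc g).zpow_right k⟩
  have k1 (m : M) (hm : ρ m = 1) (h2 : m * m = 1) : m = 1 := by
    have := (k3 m hm).1
    rwa [pow_succ, sq, h2, one_mul] at this
  have ρD : ρ D = 1 := (kr D).2 (mem_zpowers D)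
  have lift (y) (hy : y * y = 1) : ∃ g : M, ρ g = y ∧ g * g = 1 := by
    obtain ⟨g, rfl⟩ := sur y
    refine ⟨g ^ 3, by rw [map_pow, pow_succ, sq, hy, one_mul], ?_⟩
    rw [← (Commute.refl g).mul_pow, (k3 _ (by rw [map_mul, hy])).1]
  have cm (a b : M) (h1 : a * a = 1) (h2 : b * b = 1) (h3 : ρ (a * b) * ρ (a * b) = 1) : a * b * (a * b) = 1 := by
    have c := (k3 (a * b * (a * b)) (by rw [map_mul, h3])).2 a
    have ha (x) : a * (a * x) = x := by rw [← mul_assoc, h1, one_mul]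
    have hb (x) : b * (b * x) = x := by rw [← mul_assoc, h2, one_mul]
    refine k1 _ (by rw [map_mul, h3]) ?_
    nth_rw 2 [← ha (a * b * (a * b))]
    rw [c.eq]
    simp only [mul_assoc, ha, hb, h1]
  have inj (a b : M) (h1 : a * a = 1) (h2 : b * b = 1) (e : ρ a = ρ b) : a = b := by
    have q : ρ (a * b) = 1 := by rw [map_mul, e, ← map_mul, h2, map_one]
    have := k1 _ q (cm a b h1 h2 (by rw [q, mul_one]))
    rw [← mul_one a, ← h2, ← mul_assoc, this, one_mul]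
  let Y' : Subgroup M :=
    { carrier := {g | ρ g ∈ Y₀ ∧ g * g = 1}
      mul_mem' := fun {a b} ha hb => by
        have q : ρ (a * b) ∈ Y₀ := by rw [map_mul]; exact mul_mem ha.1 hb.1
        exact ⟨q, cm a b ha.2 hb.2 (h.Y2 _ q)⟩
      one_mem' := ⟨by simp, by simp⟩
      inv_mem' := fun {a} ha => ⟨by rw [map_inv]; exact inv_mem ha.1, by rw [← mul_inv_rev, ha.2, inv_one]⟩ }
  have nY (k : M) (hk : ρ k ∈ K₀) (y) (hy : y ∈ Y') : k * y * k⁻¹ ∈ Y' :=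
    ⟨by rw [map_mul, map_mul, map_inv]; exact h.nY _ hk _ hy.1, by rw [conj_mul, hy.2, mul_one, mul_inv_cancel]⟩
  have KM : (K₀.comap ρ).map M.subtype ≤ M := map_subtype_le _
  have A (J : Subgroup Γ) (h1 : J ≤ (K₀.comap ρ).map M.subtype) (h2 : Y'.map M.subtype ≤ J) (h3 : d ∈ J) :
      (J.subgroupOf M).map ρ ≤ K₀ ∧ Y₀ ≤ (J.subgroupOf M).map ρ ∧ ((J.subgroupOf M).map ρ).comap ρ = J.subgroupOf M := by
    refine ⟨?_, fun y hy => ?_, comap_map_eq_self fun m hm => ?_⟩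
    · rintro _ ⟨g, hg, rfl⟩
      obtain ⟨k, hk, e⟩ := h1 hg
      exact (Subtype.ext e : k = g) ▸ hk
    · obtain ⟨g, rfl, e⟩ := lift y (h.Y2 y hy)
      exact ⟨g, h2 ⟨g, ⟨hy, e⟩, rfl⟩, rfl⟩
    · exact (zpowers_le (H := J.subgroupOf M)).2 h3 ((kr m).1 hm)
  have B (J : Subgroup Γ) (h1 : ((J.subgroupOf M).map ρ).comap ρ = J.subgroupOf M) (h2 : K₀ ≤ (J.subgroupOf M).map ρ) :
      (K₀.comap ρ).map M.subtype ≤ J := by
    rintro _ ⟨k, hk, rfl⟩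
    exact h1.le (h2 hk)
  have ix : (K₀.comap ρ).index = 77 := by rw [index_comap_of_surjective _ sur, hi]
  refine ⟨(K₀.comap ρ).map M.subtype, Y'.map M.subtype, ⟨⟨D, show ρ D ∈ K₀ from ρD ▸ one_mem _, rfl⟩, map_mono fun y hy => h.YK hy.1, ?_, ?_, ?_,
    ?_, fun J h1 h2 h3 h4 => ?_, fun N h1 h2 h3 h4 => ?_, fun E h1 h2 => ?_⟩, KM, ?_, ?_⟩
  · rw [card_map_of_injective M.subtype_injective, ← h.cY]
    refine Nat.card_eq_of_bijective (fun g : Y' => (⟨ρ g, g.2.1⟩ : Y₀))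
      ⟨fun a b e => Subtype.ext (inj _ _ a.2.2 b.2.2 (congrArg Subtype.val e)), fun y => ?_⟩
    obtain ⟨g, e1, e⟩ := lift y.1 (h.Y2 _ y.2)
    exact ⟨⟨g, e1 ▸ y.2, e⟩, Subtype.ext e1⟩
  · rintro _ ⟨y, hy, rfl⟩
    exact congrArg Subtype.val hy.2
  · rintro _ ⟨k, hk, rfl⟩ _ ⟨y, hy, rfl⟩
    exact ⟨_, nY k hk y hy, rfl⟩
  · rintro _ ⟨y, hy, rfl⟩ _ ⟨y', hy', rfl⟩ n1 n2
    obtain ⟨k, hk, e⟩ := h.tr _ hy.1 _ hy'.1 (fun q => n1 (congrArg Subtype.val (k1 y q hy.2))) fun q => n2 (congrArg Subtype.val (k1 y' q hy'.2))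
    obtain ⟨k, rfl⟩ := sur k
    exact ⟨k, ⟨k, hk, rfl⟩, congrArg Subtype.val (inj _ _ (nY k hk y hy).2 hy'.2 (by rw [map_mul, map_mul, map_inv, e]))⟩
  · obtain ⟨a1, a2, a3⟩ := A J h1 h2 h3
    refine B J a3 (h.s1 _ a1 a2 (one_mem _) ?_)
    rwa [← map_comap_eq_self_of_surjective sur K₀, ← relIndex_comap, a3, subgroupOf, relIndex_comap]
  · obtain ⟨a1, a2, a3⟩ := A N h1 h2 h3
    refine (h.s2 _ a1 a2 (one_mem _) ?_).imp (B N a3) fun q g hg e => ?_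
    · rintro k hk _ ⟨n, hn, rfl⟩
      obtain ⟨k, rfl⟩ := sur k
      exact ⟨k * n * k⁻¹, h4 _ ⟨k, hk, rfl⟩ _ hn, by rw [map_mul, map_mul, map_inv]⟩
    · have e' : (⟨g, KM (h1 hg)⟩ : M) * ⟨g, KM (h1 hg)⟩ = 1 := Subtype.ext e
      exact ⟨⟨g, KM (h1 hg)⟩, ⟨q _ ⟨_, hg, rfl⟩ (by rw [← map_mul, e', map_one]), e'⟩, rfl⟩
  · have sq (g : M) (hg : g.1 ∈ E) : g * g = 1 := Subtype.ext (h2 _ hg)
    have a := h.s3 ((E.subgroupOf M).map ρ) (by
      rintro _ ⟨g, hg, rfl⟩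
      obtain ⟨k, hk, e⟩ := h1 hg
      exact (Subtype.ext e : k = g) ▸ hk) (by
      rintro _ ⟨g, hg, rfl⟩
      rw [← map_mul, sq g hg, map_one])
    refine (Nat.card_le_card_of_injective (fun e : E => (⟨ρ ⟨e, KM (h1 e.2)⟩, _, e.2, rfl⟩ : (E.subgroupOf M).map ρ)) fun a b e =>
      Subtype.ext (congrArg (fun m : M => m.1) (inj _ _ (sq _ a.2) (sq _ b.2) (congrArg Subtype.val e)))).trans
        (a.trans (Nat.mul_le_mul_left _ (Nat.card_le_card_of_surjective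
          (fun e : ↥(E ⊓ Y'.map M.subtype) => (⟨ρ ⟨e, KM (h1 e.2.1)⟩, ⟨_, e.2.1, rfl⟩, ?_⟩ : ↥((E.subgroupOf M).map ρ ⊓ Y₀))) ?_)))
    · obtain ⟨y, hy, q⟩ := e.2.2
      exact (Subtype.ext q : y = ⟨e, KM (h1 e.2.1)⟩) ▸ hy.1
    · rintro ⟨_, ⟨g, hg, rfl⟩, hy⟩
      exact ⟨⟨g, hg, g, ⟨hy, sq g hg⟩, rfl⟩, rfl⟩
  · rw [relIndex, subgroupOf, comap_map_eq_self_of_injective M.subtype_injective, ix]
  · obtain ⟨m, hm, e⟩ := (map_subtype_commutator M).ge dc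
    obtain rfl : m = D := Subtype.ext e
    have a := Abelianization.commutator_subset_ker (MonoidHom.transfer (Abelianization.of (G := K₀.comap ρ))) hm
    rw [MonoidHom.mem_ker, MonoidHom.transfer_eq_pow _ _ fun k g _ => by rw [mul_assoc, ← ((Dc g).pow_right k).eq, inv_mul_cancel_left],
      ← MonoidHom.mem_ker, Abelianization.ker_of] at a
    have b : D ^ (K₀.comap ρ).index ∈ ⁅K₀.comap ρ, K₀.comap ρ⁆ := (map_subtype_commutator _).le ⟨_, a, rfl⟩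
    rw [← map_commutator]
    refine ⟨D, ?_, rfl⟩
    have := pow_mem b 2
    rwa [ix, ← pow_mul, pow_eq_pow_mod _ D3, show 77 * 2 % 3 = 1 from rfl, pow_one] at this

end H08.JL
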