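import Mathlib
import Cfsg.Agent.H23.K0

/-! Part E of S5567: if the preimage of `B` is normal in `N(A)`, then `N(A)` centralises `z`. -/

set_option autoImplicit false
set_option linter.unusedSectionVars false
open Cfsg BG Subgroup H01.XS Cfsg.Agent.H06.J

namespace H08.KE
universe u

theorem lin {V : Type u} [AddCommGroup V] [Module (ZMod 2) V] [Finite V] {Γ : Type u} [Group Γ] [Finite Γ]
    {T : Γ → V →+ V} {d : Γ} {M K Y : Subgroup Γ} {β : V →+ V →+ ZMod 2} {q : V → ZMod 2} {B : AddSubgroup V}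
    (g : Gj T d M β q) (p : Pj T d K Y q B) (two : ∀ v : V, v + v = 0) {a : V} (a0 : a ≠ 0) {x : Γ}
    (h : ∀ v ∈ B, T x v = v ∨ T x v = a + v) : ∀ v ∈ B, T x v = v := by
  by_cases hx : x ∈ M
  · intro v hv
    refine (h v hv).resolve_right fun e => a0 ?_
    have c : T x (T d v) = T d (T x v) := by rw [← g.mul, ← g.mul, g.Md x hx]
    rw [e, map_add] at c
    have f := g.hf a
    rcases h _ (p.Bω v hv) with e' | e' <;> rw [e'] at c
    · have k : T d a = 0 := by linear_combination (norm := abel) -c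
      rw [k, map_zero] at f
      simpa using f
    · have k : T d a = a := by linear_combination (norm := abel) -c
      rw [k, k] at f
      linear_combination (norm := abel) f - two a
  · exfalso
    have s : (B : Set V) ⊆ {0, a, T d (T d a), a + T d (T d a)} := fun v hv => by
      have c : T x (T d v) = T d (T d (T x v)) := by rw [← g.mul, ← g.mul, ← g.mul, g.nM x hx]
      have f := g.hf v
      simp only [Set.mem_insert_iff, Set.mem_singleton_iff]
      rcases h v hv with e | e <;> rcases h _ (p.Bω v hv) with e' | e' <;> rw [e, e'] at c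
      · exact .inl (by linear_combination (norm := abel) f + c - two (T d v))
      · exact .inr (.inl (by linear_combination (norm := abel) f + c - two (T d v) - two a))
      · rw [map_add, map_add] at c
        exact .inr (.inr (.inl (by linear_combination (norm := abel) f + c - two (T d v))))
      · rw [map_add, map_add] at c
        exact .inr (.inr (.inr (by linear_combination (norm := abel) f + c - two (T d v) - two a)))
    have c1 := Set.ncard_le_ncard s (Set.toFinite _)
    have c2 : (B : Set V).ncard = 64 := by rw [← Nat.card_coe_set_eq]; exact p.cB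
    have c3 : ({0, a, T d (T d a), a + T d (T d a)} : Set V).ncard ≤ 4 :=
      (Set.ncard_insert_le _ _).trans (Nat.succ_le_succ ((Set.ncard_insert_le _ _).trans (Nat.succ_le_succ
        ((Set.ncard_insert_le _ _).trans (by rw [Set.ncard_singleton])))))
    omega

theorem e : Cfsg.Agent.H23.K.EStmt.{u} := by
  intro G _ _ z Q V _ _ _ Γ _ _ f π ν T d M β q s K Y B A δ c c2 h m hm
  by_contra n
  have l := s.md.lx
  have zD : z ∈ s.md.pull B := ⟨l.aes.mem, s.md.zz ▸ zero_mem _⟩
  have z' := h m hm z zD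
  have a0 : ν (m * z * m⁻¹) ≠ 0 := fun e => by
    rcases (s.md.ker _ z'.1).1 e with k | k
    · exact l.z1 (by simpa using k)
    · exact n k
  have cm : ∀ r ∈ Q, ∀ w ∈ s.md.pull B, m * r * m⁻¹ * w * (m * r * m⁻¹)⁻¹ = w ∨
      m * r * m⁻¹ * w * (m * r * m⁻¹)⁻¹ = m * z * m⁻¹ * w := fun r hr w hw => by
    have w' := (h _ (inv_mem hm) w hw).1
    rcases l.cm hr w' with k | k
    · left
      calc _ = m * (r * (m⁻¹ * w * m⁻¹⁻¹)) * r⁻¹ * m⁻¹ := by group
        _ = w := by rw [k]; group
    · right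
      calc _ = m * (r * (m⁻¹ * w * m⁻¹⁻¹)) * r⁻¹ * m⁻¹ := by group
        _ = _ := by rw [k]; group
  have key : ∀ r ∈ Q, m * r * m⁻¹ * z * (m * r * m⁻¹)⁻¹ = z → m * r * m⁻¹ ∈ A := fun r hr k => by
    have xz : m * r * m⁻¹ ∈ C_[z] := mem_cent1.2 (mul_inv_eq_iff_eq_mul.1 k)
    have t := lin s.gm c.pj s.md.two a0 (x := π (m * r * m⁻¹)) fun v hv => by
      obtain ⟨w, hw, rfl⟩ := s.md.sur v
      rw [s.act _ xz w hw]
      rcases cm r hr w ⟨hw, hv⟩ with e | e <;> rw [e]
      exacts [.inl rfl, .inr (s.md.mul _ z'.1 _ hw)]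
    refine c.mA _ xz (c2.fB _ t) (mem_centralizer_iff.2 fun w hw => ?_)
    rcases cm r hr w hw with e | e
    · exact (mul_inv_eq_iff_eq_mul.1 e).symm
    · have t' := t _ hw.2
      rw [s.act _ xz w hw.1, e, s.md.mul _ z'.1 _ hw.1] at t'
      exact absurd (add_eq_right.1 t') a0
  obtain ⟨e, he⟩ : ∃ e : G, ∀ r ∈ Q, m * r * m⁻¹ ∈ A ∨ e⁻¹ * (m * r * m⁻¹) ∈ A := by
    by_cases k : ∀ r ∈ Q, m * r * m⁻¹ * z * (m * r * m⁻¹)⁻¹ = z
    · exact ⟨1, fun r hr => .inl (key r hr (k r hr))⟩
    · push Not at k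
      obtain ⟨r0, h0, k⟩ := k
      have k0 := (cm r0 h0 z zD).resolve_left k
      refine ⟨m * r0 * m⁻¹, fun r hr => ?_⟩
      rcases cm r hr z zD with k1 | k1
      · exact .inl (key r hr k1)
      · right
        rw [show (m * r0 * m⁻¹)⁻¹ * (m * r * m⁻¹) = m * (r0⁻¹ * r) * m⁻¹ by group]
        refine key _ (mul_mem (inv_mem h0) hr) ?_
        calc _ = (m * r0 * m⁻¹)⁻¹ * (m * r * m⁻¹ * z * (m * r * m⁻¹)⁻¹) * (m * r0 * m⁻¹) := by group
          _ = z := by rw [k1, ← k0]; group
  have sb : (Q : Set G) ⊆ (fun x => m⁻¹ * x * m) '' A ∪ (fun x => m⁻¹ * (e * x) * m) '' A := fun r hr => by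
    rcases he r hr with k | k
    · exact .inl ⟨_, k, by group⟩
    · exact .inr ⟨_, k, by group⟩
  have c1 := (Set.ncard_le_ncard sb (Set.toFinite _)).trans (Set.ncard_union_le _ _)
  have c3 := Set.ncard_image_le (f := fun x => m⁻¹ * x * m) (Set.toFinite (A : Set G))
  have c4 := Set.ncard_image_le (f := fun x => m⁻¹ * (e * x) * m) (Set.toFinite (A : Set G))
  have c5 : (Q : Set G).ncard = 8192 := by rw [← Nat.card_coe_set_eq]; exact s.card
  have c6 : (A : Set G).ncard = 2048 := by rw [← Nat.card_coe_set_eq]; exact c.cA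
  omega

end H08.KE
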