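import Cfsg.Agent.L.Jf0
import Cfsg.Agent.S4416

/-! Part W of S5572 (namespace `H08.S5W`). -/

set_option autoImplicit false

namespace H08.S5W
open Cfsg BG Subgroup
universe u

theorem dv {L S : Type u} [Group L] [Finite L] [Finite S] [MulAction L S] (c : Nat.card L = 192)
    (h : ∀ s : S, Nat.card (MulAction.stabilizer L s) ∣ 16) : 12 ∣ Nat.card S := by
  classical
  have := Fintype.ofFinite (MulAction.orbitRel.Quotient L S)
  rw [Nat.card_congr (MulAction.selfEquivSigmaOrbits' L S), Nat.card_sigma]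
  refine Finset.dvd_sum fun ω _ => ?_
  induction ω using Quotient.inductionOn with | h s =>
  have a := (MulAction.stabilizer L s).card_mul_index
  obtain ⟨k, hk⟩ := h s
  rw [MulAction.index_stabilizer, c] at a
  have e : Nat.card (MulAction.orbitRel.Quotient.orbit (Quotient.mk _ s : MulAction.orbitRel.Quotient L S)) =
    (MulAction.orbit L s).ncard := Nat.card_coe_set_eq _
  rw [e]
  have p : 0 < Nat.card (MulAction.stabilizer L s) := Nat.card_pos
  refine ⟨k, Nat.eq_of_mul_eq_mul_left p ?_⟩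
  rw [a, mul_left_comm, ← hk]
  rfl

theorem w : L.Jf.WStmt.{u} := by
  intro X _ _ Q z δ oz c l
  by_contra n
  push Not at n
  have z1 : z ≠ 1 := fun e => by simp [e] at oz
  have z2 : z ^ 2 = 1 := oz ▸ pow_orderOf_eq_one z
  let S : Set X := {r | r ∈ Q ∧ r ^ 2 = 1 ∧ r ≠ 1 ∧ r ≠ z}
  letI : MulAction ↥C_[z] S :=
    { smul := fun g r => ⟨g * r * (g : X)⁻¹, (mem_normalizer_iff.1 (l.nQ g.2) _).1 r.2.1, by rw [conj_pow, r.2.2.1]; group,
        fun e => r.2.2.2.1 (conj_eq_one_iff.1 e), fun e => r.2.2.2.2 (by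
          rw [mul_inv_eq_iff_eq_mul, ← mem_centralizer_singleton_iff.1 g.2] at e
          exact mul_left_cancel e)⟩
      one_smul := fun r => Subtype.ext (show (1 : X) * r * (1 : X)⁻¹ = r by group)
      mul_smul := fun a b r => Subtype.ext (show (a * b : X) * r * (a * b : X)⁻¹ = a * (b * r * (b : X)⁻¹) * (a : X)⁻¹ by group) }
  have d := dv (L := ↥C_[z]) (S := S) c fun s => by
    refine Dvd.dvd.trans ?_ (n s s.2.1 s.2.2.2.2 (orderOf_eq_prime s.2.2.1 s.2.2.2.1))
    rw [← card_map_of_injective (K := MulAction.stabilizer (↥C_[z]) s) (subtype_injective _)]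
    refine card_dvd_of_le ?_
    rintro _ ⟨g, hg, rfl⟩
    exact mem_centralizer_singleton_iff.2 (mul_inv_eq_iff_eq_mul.1 (congrArg Subtype.val hg))
  obtain ⟨m, -, hm, k⟩ := (Cfsg.Agent.S4416.result.{u, u} Q l.ex).1
  obtain rfl : m = 2 := by
    have := Nat.pow_right_injective (le_refl 2) (hm.symm.trans (l.cQ.trans (by norm_num : 32 = 2 ^ 5)))
    omega
  have e : Nat.card {x : Q // x ^ 2 = 1} = (insert 1 (insert z S)).ncard := by
    rw [← Nat.card_coe_set_eq]
    refine Nat.card_congr ⟨fun x => ⟨x.1.1, ?_⟩, fun x => ⟨⟨x.1, ?_⟩, Subtype.ext ?_⟩, fun _ => rfl, fun _ => rfl⟩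
    · by_cases a : x.1.1 = 1
      · exact .inl a
      by_cases b : x.1.1 = z
      exacts [.inr (.inl b), .inr (.inr ⟨x.1.2, congrArg Subtype.val x.2, a, b⟩)]
    · rcases x.2 with a | a | a
      exacts [by rw [a]; exact one_mem _, by rw [a]; exact l.zQ, a.1]
    · show x.1 ^ 2 = 1
      rcases x.2 with a | a | a
      exacts [by rw [a, one_pow], by rw [a, z2], a.2.1]
  rw [Set.ncard_insert_of_notMem (by rintro (a | a); exacts [z1 a.symm, a.2.2.1 rfl]),
    Set.ncard_insert_of_notMem (fun a => a.2.2.2 rfl), ← Nat.card_coe_set_eq] at e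
  omega

end H08.S5W
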