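import Cfsg.Agent.L.Js0

/-! Part B of S5573 (namespace `H08.S7B`). -/

set_option autoImplicit false

namespace H08.S7B
open Cfsg BG Subgroup
universe u

theorem b : L.Js.BStmt.{u} := by
  intro G _ _ z t σ V K m7 ha pu hN hV cV kv ks ⟨e⟩ σt o7
  have VC : V ≤ C_[t] := ks ▸ le_sup_right
  have KC : K ≤ C_[t] := ks ▸ le_sup_left
  have n : (V.subgroupOf C_[t]).Normal := ⟨fun x i g => (mem_normalizer_iff.1 (hN g.2) x).1 i⟩
  let ψ := (QuotientGroup.mk' (V.subgroupOf C_[t])).comp (inclusion KC)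
  have bj : Function.Bijective ψ := ⟨(injective_iff_map_eq_one ψ).2 fun k h =>
      Subtype.ext (mem_bot.1 (kv.le ⟨k.2, (QuotientGroup.eq_one_iff (N := V.subgroupOf C_[t]) (inclusion KC k)).1 h⟩)), fun x => by
    have : (K.subgroupOf C_[t]).map (QuotientGroup.mk' (V.subgroupOf C_[t])) = ⊤ := by
      have a := congrArg (Subgroup.map (QuotientGroup.mk' (V.subgroupOf C_[t]))) (subgroupOf_sup KC VC)
      rwa [ks, subgroupOf_self, Subgroup.map_sup, QuotientGroup.map_mk'_self, sup_bot_eq,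
        map_top_of_surjective _ (QuotientGroup.mk'_surjective _), eq_comm] at a
    obtain ⟨k, hk, rfl⟩ := this.ge (mem_top x)
    exact ⟨⟨k, hk⟩, rfl⟩⟩
  let φ : C_[t] →* MulAut Spor.M22 :=
    ((MulEquiv.ofBijective ψ bj).symm.trans e).toMonoidHom.comp (QuotientGroup.mk' (V.subgroupOf C_[t]))
  have φ1 : ∀ x, φ x = 1 ↔ x.1 ∈ V := fun x =>
    (((MulEquiv.ofBijective ψ bj).symm.trans e).map_eq_one_iff).trans (QuotientGroup.eq_one_iff _)
  have : Fact (Nat.Prime 7) := ⟨by norm_num⟩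
  have oσ : orderOf (φ ⟨σ, σt⟩) = 7 := orderOf_eq_prime
    (by rw [← map_pow, ← map_one φ]; exact congrArg φ (Subtype.ext (by simpa using o7 ▸ pow_orderOf_eq_one σ))) fun h => by
      have := orderOf_dvd_natCard (⟨σ, (φ1 _).1 h⟩ : V)
      rw [← orderOf_coe, o7, cV] at this
      norm_num at this
  have c4 : Nat.card ↥(V ⊓ C_[σ]) ∣ 4 := by
    obtain ⟨k, -, hk⟩ := (Nat.dvd_prime_pow Nat.prime_two).1 (cV ▸ card_dvd_of_le (inf_le_left : V ⊓ C_[σ] ≤ V))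
    have : k ≤ 2 := by
      by_contra h
      have h8 : 8 ∣ Nat.card ↥(V ⊓ C_[σ]) := hk ▸ pow_dvd_pow 2 (show 3 ≤ k by omega)
      by_cases p : ∀ x ∈ V ⊓ C_[σ], x ≠ 1 → ¬ IsConj z x
      · have := (Nat.le_of_dvd Nat.card_pos h8).trans (pu V hV cV _ inf_le_left p)
        omega
      push Not at p
      obtain ⟨x, hx, -, c⟩ := p
      obtain ⟨g, rfl⟩ := isConj_iff.1 c
      have cc : ∀ y : G, y * (g * z * g⁻¹) = g * z * g⁻¹ * y → g⁻¹ * y * g⁻¹⁻¹ ∈ C_[z] := fun y k =>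
        mem_centralizer_singleton_iff.2 (by
          calc _ = g⁻¹ * (y * (g * z * g⁻¹)) * g := by group
            _ = _ := by rw [k]; group)
      have d := (ha.2 _ (cc σ (mem_centralizer_singleton_iff.1 hx.2).symm)
        (((MulAut.conj g⁻¹).orderOf_eq σ).trans o7)).1
      have l : cj g⁻¹ (V ⊓ C_[σ]) ≤ C_[z] ⊓ C_[g⁻¹ * σ * g⁻¹⁻¹] := fun y hy => by
        obtain ⟨w, hw, rfl⟩ := mem_cj'.1 hy
        refine ⟨cc w (congrArg Subtype.val (hV.1.is_comm.comm (⟨w, hw.1⟩ : V) ⟨_, hx.1⟩)),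
          mem_centralizer_singleton_iff.2 ?_⟩
        calc _ = g⁻¹ * (w * σ) * g := by group
          _ = _ := by rw [mem_centralizer_singleton_iff.1 hw.2]; group
      have := (h8.trans (card_cj g⁻¹ _ ▸ card_dvd_of_le l)).trans d
      norm_num at this
    rw [hk]; exact pow_dvd_pow 2 this
  have a1 := card_inf_mul_relIndex φ.ker ((C_[t] ⊓ C_[σ]).subgroupOf C_[t])
  rw [relIndex_ker, show φ.ker ⊓ (C_[t] ⊓ C_[σ]).subgroupOf C_[t] = (V ⊓ C_[σ]).subgroupOf C_[t] from Subgroup.ext fun x =>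
    ⟨fun i => ⟨(φ1 x).1 i.1, i.2.2⟩, fun i => ⟨(φ1 x).2 i.1, x.2, i.2⟩⟩,
    Nat.card_congr (subgroupOfEquivOfLe (inf_le_left.trans VC)).toEquiv,
    Nat.card_congr (subgroupOfEquivOfLe inf_le_left).toEquiv] at a1
  rw [← a1]
  refine mul_dvd_mul c4 ((card_dvd_of_le ?_).trans (m7 _ oσ))
  rintro _ ⟨x, hx, rfl⟩
  refine mem_centralizer_singleton_iff.2 ?_
  rw [← map_mul, ← map_mul]
  exact congrArg φ (Subtype.ext (mem_centralizer_singleton_iff.1 hx.2))

end H08.S7B
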