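import Mathlib
import Cfsg.Agent.H10.Sim6

/-! # Unitary similarity groups are maximal in `SL_n` for `n ≥ 4` -/

set_option autoImplicit false

namespace Cfsg.Agent.H08.Sl49

open Module H10 H10.Form

section tv
variable {F V : Type*} [Field F] [AddCommGroup V] [Module F V] {M : Subgroup (V ≃ₗ[F] V)} {a b : V} {f g : Dual F V}

theorem tv_cj (h : Tv M a f) (h' : Tv M b g) (hg : g b = 0) : Tv M (a + g a • b) (f - f b • g) := by
  obtain ⟨k, hk, e⟩ := h'
  convert h.conj hk using 1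
  · exact (e a).symm
  · ext x
    have : k.symm x = x - g x • b := by
      rw [LinearEquiv.symm_apply_eq, e]; simp [hg]
    simp [this, mul_comm]

theorem tv_sub_left (h : Tv M (a + b) f) (h' : Tv M a f) (ha : f a = 0) (hb : f b = 0) : Tv M b f := by
  obtain ⟨k, hk, e⟩ := h
  obtain ⟨l, hl, e'⟩ := h'.neg ha
  exact ⟨l * k, M.mul_mem hl hk, fun x => by
    simp only [LinearEquiv.mul_apply, e, e', map_add, map_smul, ha, hb, LinearMap.neg_apply]; module⟩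

end tv

section form
variable {F V : Type*} [Field F] [AddCommGroup V] [Module F V] {φ : Form F V}
  [φ.Nondeg] [FiniteDimensional F V] {q : ℕ} (h : φ.IsUnitary q) (hn : 4 ≤ finrank F V)
include h hn

theorem hyp_perp (u : V) : ∃ e f, φ.IsHyp e f ∧ φ.B u e = 0 ∧ φ.B u f = 0 := by
  obtain ⟨W, h1, h2, h3⟩ := φ.exists_nondeg_orth [u]
  have := h1.nondeg
  obtain ⟨e, f, hyp⟩ := (h.restrict W).exists_hyp_of_two_le (by simp at h2; omega)
  have h4 := φ.mem_perp.1 (h3 u (by simp))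
  exact ⟨e, f, ⟨hyp.Qe, hyp.Qf, hyp.Bef⟩, φ.B_symm_zero (h4 _ e.2), φ.B_symm_zero (h4 _ f.2)⟩

theorem span_sing (u : V) {A : Submodule F V} (hA : ∀ y, φ.Q y = 0 → φ.B u y = 0 → y ∈ A) {x : V}
    (hx : φ.B u x = 0) : x ∈ A := by
  obtain ⟨e, f, hyp, h1, h2⟩ := hyp_perp h hn u
  exact le_of_sing_mem (W := φ.perp (F ∙ u)) hyp (φ.mem_perp_singleton.2 h1) (φ.mem_perp_singleton.2 h2)
    (fun w hw _ hQ => hA w hQ (φ.mem_perp_singleton.1 hw)) (φ.mem_perp_singleton.2 hx)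

theorem exists_sing_ne {u a : V} (hua : a ∉ F ∙ u) : ∃ y, φ.Q y = 0 ∧ φ.B u y = 0 ∧ φ.B a y ≠ 0 := by
  by_contra! h0
  obtain ⟨w, h1, h2⟩ := φ.exists_sep' hua
  have := span_sing h hn u (A := LinearMap.ker (φ.B a)) h0 (h1 u (Submodule.mem_span_singleton_self u))
  rw [LinearMap.mem_ker, h2] at this
  exact one_ne_zero this

theorem eq_mul (B' : V →ₛₗ[φ.σ] V →ₗ[F] F)
    (H : ∀ p w, φ.Q p = 0 → φ.B p w = 0 → B' p w = 0) : ∃ c, ∀ x y, B' x y = c * φ.B x y := by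
  have h1 : ∀ p, φ.Q p = 0 → ∃ c, ∀ y, B' p y = c * φ.B p y := fun p hp => by
    by_cases hp0 : p = 0
    · exact ⟨0, by simp [hp0]⟩
    obtain ⟨z, hz⟩ := φ.exists_B_eq_one hp0
    refine ⟨B' p z, fun y => ?_⟩
    have := H p (y - φ.B p y • z) hp (by simp [hz])
    simp only [map_sub, map_smul, smul_eq_mul] at this
    linear_combination this
  choose! c hc using h1
  obtain ⟨s, hs0, hs⟩ := h.exists_skew
  have h2 : ∀ p y, φ.Q p = 0 → φ.Q y = 0 → φ.B p y ≠ 0 → c p = c y := fun p y hp hy hpy => by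
    have hyp : φ.B y p ≠ 0 := fun e => hpy (φ.B_symm_zero e)
    have ht : φ.σ (s / φ.B p y) ≠ 0 := by simp [hs0, hpy]
    have h3 := hc (p + (s / φ.B p y) • y) (by
      rw [φ.Q_add, hp, φ.Q_smul_of_sing hy, map_smul, smul_eq_mul, div_mul_cancel₀ _ hpy, hs]; simp)
    have h4 := h3 y
    have h5 := h3 p
    simp only [map_add, LinearMap.map_smulₛₗ, LinearMap.add_apply, LinearMap.smul_apply, smul_eq_mul, hc p hp, hc y hy,
      φ.B_self_eq_zero hp, φ.B_self_eq_zero hy, mul_zero, add_zero, zero_add] at h4 h5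
    rw [mul_right_cancel₀ hpy h4]
    exact (mul_right_cancel₀ (mul_ne_zero ht hyp) (by linear_combination h5)).symm
  obtain ⟨p, f, hyp, -⟩ := hyp_perp h hn 0
  have hp0 : p ≠ 0 := fun e => by simpa [e] using hyp.Bef
  have h3 : ∀ z, z ≠ 0 → φ.Q z = 0 → c z = c p := fun z hz0 hz => by
    by_cases h4 : φ.B p z = 0
    · obtain ⟨y, h5, h6, h7⟩ := exists_common hyp.Qe hp0 hz0 h4
      rw [h2 z y hz h5 h7, h2 p y hyp.Qe h5 h6]
    · exact (h2 p z hyp.Qe hz h4).symm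
  refine ⟨c p, fun x y => ?_⟩
  have := le_of_sing_mem (W := ⊤) (A := LinearMap.ker (B' - c p • φ.B)) hyp trivial trivial
    (fun w _ hw0 hw => by ext y; simp [hc w hw, h3 w hw0 hw]) (Submodule.mem_top (x := x))
  simpa [sub_eq_zero] using LinearMap.congr_fun (LinearMap.mem_ker.1 this) y

variable {M : Subgroup (V ≃ₗ[F] V)} (hM : ∀ k ∈ φ.E, k.1 ∈ M)
include hM

omit hn in
theorem unit_tv {y : V} (hy : φ.Q y = 0) {c : F} (hc : φ.T c = 0) : Tv M y (c • φ.B y) := by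
  have h1 : φ.B y 0 = 0 := by simp
  have h2 : φ.T (-c) = φ.Q 0 := by simp [hc]
  exact ⟨_, hM _ (φ.siegel_mem_E hy h1 h2), fun x => by
    rw [φ.siegel_apply hy h1 h2]; simp [h.herm.ε_eq]⟩

theorem full_of {p u : V} (hp : φ.Q p = 0) (hp0 : p ≠ 0) (hu : u ∉ F ∙ p) (hup : φ.B u p = 0)
    (H : Tv M p (φ.B u)) (v : V) : v ∈ fullSub M := by
  have hpp := φ.B_self_eq_zero hp
  have hpu := φ.B_symm_zero hup
  have h0 : ∀ k ∈ φ.E, ∀ a x, Tv M a (φ.B x) → Tv M (k.1 a) (φ.B (k.1 x)) := fun k hk a x hx => by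
    convert hx.conj (hM k hk) using 1
    ext y; simp [Isom.B_symm_right]
  have h1 : ∀ d : F, Tv M p (φ.B (d • p)) := fun d => by
    obtain ⟨w, h2, h3⟩ := φ.exists_sep hu
    have h4 : φ.B p (φ.σ d • w) = 0 := by
      simp [φ.B_symm_zero (h2 p (Submodule.mem_span_singleton_self p))]
    obtain ⟨s, hs, -⟩ := φ.half (φ.σ d • w)
    have h6 := h0 _ (φ.siegel_mem_E hp h4 hs) _ _ H
    rw [siegel_apply_self hp h4 hs] at h6
    have h7 := Isom.B_map (φ.siegel p (φ.σ d • w) s) u p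
    rw [siegel_apply_self hp h4 hs] at h7
    convert h6.sub H (h7.trans hup) hup using 1
    rw [← map_sub, φ.siegel_apply hp h4 hs]
    simp [hpu, h3]
  have h2 : ∀ y, φ.Q y = 0 → y ≠ 0 → ∀ d : F, Tv M y (φ.B (d • y)) := fun y hy hy0 d => by
    obtain ⟨k, hk, c, hc, e⟩ := h.conn.exists_E_map_point hp hp0 hy hy0
    have := h0 k hk _ _ (h1 (d / (φ.σ c * c)))
    rw [map_smul, e, tv_smul] at this
    convert this using 1
    have : φ.σ c ≠ 0 := by simpa using hc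
    ext x; simp; field_simp
  have h3 : ∀ w, φ.B w p = 0 → Tv M p (φ.B w) → ∀ y, φ.Q y = 0 → φ.B y p = 0 → φ.B w y ≠ 0 →
      ∀ d : F, Tv M p (φ.B (d • y)) := fun w hw Hw y hy hyp hwy d => by
    have := tv_cj Hw (h2 y hy (by rintro rfl; simp at hwy) (d / φ.σ (φ.B w y))) (by simp [φ.B_self_eq_zero hy])
    rw [show φ.B ((d / φ.σ (φ.B w y)) • y) p = 0 by simp [hyp], zero_smul, add_zero] at this
    convert Hw.sub this hw (by simp [hw, hyp]) using 1
    ext x; simp; field_simp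
  let A : Submodule F V :=
    { carrier := {x | φ.B x p = 0 ∧ ∀ c : F, Tv M p (φ.B (c • x))}
      zero_mem' := ⟨by simp, fun c => by simpa using tv_zero⟩
      add_mem' := fun {x y} hx hy => ⟨by simp [hx.1, hy.1], fun c => by
        rw [smul_add, map_add]; exact (hx.2 c).add (hy.2 c) (by simp [hx.1])⟩
      smul_mem' := fun c x hx => ⟨by simp [hx.1], fun d => by rw [smul_smul]; exact hx.2 _⟩ }
  have h4 : ∀ w ∈ A, ∀ y, φ.Q y = 0 → φ.B p y = 0 → φ.B w y ≠ 0 → y ∈ A := fun w hw y hy hyp hwy =>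
    ⟨φ.B_symm_zero hyp, h3 w hw.1 (by simpa using hw.2 1) y hy (φ.B_symm_zero hyp) hwy⟩
  obtain ⟨y, a1, a2, a3⟩ := exists_sing_ne h hn hu
  have a4 : y ∈ A := ⟨φ.B_symm_zero a2, h3 u hup H y a1 (φ.B_symm_zero a2) a3⟩
  obtain ⟨z, b1, b2, b3⟩ := exists_sing_ne h hn (u := p) (a := y) fun e => by
    obtain ⟨c, rfl⟩ := Submodule.mem_span_singleton.1 e
    simp [hup] at a3
  have b4 : z ∈ A := h4 y a4 z b1 b2 b3
  have h5 : p ∈ fullSub M := fun f hf => by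
    obtain ⟨x, rfl⟩ := φ.exists_B_eq f
    suffices H' : ∀ w, φ.Q w = 0 → φ.B p w = 0 → w ∈ A by
      simpa using (span_sing h hn p (A := A) H' (φ.B_symm_zero hf)).2 1
    intro w c1 c2
    by_cases c3 : φ.B y w = 0
    · by_cases c4 : φ.B z w = 0
      · simpa using A.sub_mem (h4 z b4 (y + w) (by rw [φ.Q_add_of_orth c3, a1, c1, add_zero]) (by simp [a2, c2])
          (by rw [map_add, c4, add_zero]; exact fun e => b3 (φ.B_symm_zero e))) a4
      · exact h4 z b4 w c1 c2 c4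
    · exact h4 y a4 w c1 c2 c3
  obtain ⟨e, f, hyp, -⟩ := hyp_perp h hn 0
  refine le_of_sing_mem (W := ⊤) hyp trivial trivial (fun w _ hw0 hw => ?_) Submodule.mem_top
  obtain ⟨k, hk, c, hc, e⟩ := h.conn.exists_E_map_point hp hp0 hw hw0
  have := (fullSub M).smul_mem c⁻¹ (map_mem_fullSub h5 (hM k hk))
  rwa [e, inv_smul_smul₀ hc] at this

theorem full_of' {a u : V} (hu0 : u ≠ 0) (ha : a ∉ F ∙ u) (hua : φ.B u a = 0) (H : Tv M a (φ.B u)) (v : V) :
    v ∈ fullSub M := by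
  obtain ⟨y, h1, h2, h3⟩ := exists_sing_ne h hn ha
  have h4 : φ.B y a ≠ 0 := fun e => h3 (φ.B_symm_zero e)
  obtain ⟨c, hc0, hc⟩ := h.exists_skew
  have := tv_cj H (unit_tv h hM h1 hc) (by simp [φ.B_self_eq_zero h1])
  rw [h2, zero_smul, sub_zero] at this
  have ht : (c • φ.B y) a ≠ 0 := by simp [hc0, h4]
  refine full_of h hn hM (φ.Q_smul_of_sing h1 _) (smul_ne_zero ht (by rintro rfl; simp at h4)) (fun e => ?_)
    (by simp [h2]) (tv_sub_left this H hua (by simp [h2])) v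
  obtain ⟨d, rfl⟩ := Submodule.mem_span_singleton.1 e
  have : d ≠ 0 := by rintro rfl; simp at hu0
  simp [this, hc0, h4] at hua

theorem full_of_not_sim {g : V ≃ₗ[F] V} (hg : g ∈ M) (hg' : ¬ ∃ c, ∀ x y, φ.B (g x) (g y) = c * φ.B x y) (v : V) :
    v ∈ fullSub M := by
  by_contra hf
  obtain ⟨c, hc0, hc⟩ := h.exists_skew
  refine hg' (eq_mul h hn ((φ.B.comp (g : V →ₗ[F] V)).compl₂ (g : V →ₗ[F] V)) fun p w hp hw => ?_)
  change φ.B (g p) (g w) = 0
  by_cases hp0 : p = 0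
  · simp [hp0]
  obtain ⟨u, hu⟩ := φ.exists_B_eq ((c • φ.B p) ∘ₗ (g.symm : V →ₗ[F] V))
  have hu' : ∀ x, φ.B u (g x) = c * φ.B p x := fun x => by simp [hu]
  by_cases h1 : g p ∈ F ∙ u
  · obtain ⟨d, hd⟩ := Submodule.mem_span_singleton.1 h1
    rw [← hd]; simp [hu', hw]
  refine absurd (full_of' h hn hM (fun e => ?_) h1 (by rw [hu', φ.B_self_eq_zero hp, mul_zero])
    (hu ▸ (unit_tv h hM hp hc).conj hg) v) hf
  obtain ⟨z, hz⟩ := φ.exists_B_eq_one hp0
  simpa [e, hz, hc0.symm] using hu' z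

end form

open Matrix Cfsg Cfsg.Geo

theorem sim_unit {F : Type*} [Field F] [Fintype F] {n : ℕ} (hn : 4 ≤ n) (σ : F ≃+* F)
    (f : (Fin n → F) → (Fin n → F) → F) (hf : IsUnitaryForm σ f) :
    IsMaximalIn (specialLinear (Fin n) F) (similarityGroup f ⊓ specialLinear (Fin n) F) := by
  obtain ⟨q, φ, _, h, -, h2⟩ := exists_ofHerm hf
  have : Nonempty (Fin n) := ⟨⟨0, by omega⟩⟩
  have hn' : 4 ≤ finrank F (Fin n → F) := by simpa using hn
  have h1 : ∀ g : φ.Isom, φ.toGL g ∈ similarityGroup f := fun g => (mem_similarityGroup_iff h2 _).2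
    ⟨1, fun x y => by simp [toGL_mulVec]⟩
  replace h2 := mem_similarityGroup_iff h2
  refine ⟨lt_of_le_of_ne inf_le_right fun h0 => ?_, fun M hM hM' => ?_⟩
  · obtain ⟨p, y, h3, -⟩ := hyp_perp h hn' 0
    have := h3.finrank_perp
    obtain ⟨u, hu, hu0⟩ := Submodule.exists_mem_ne_zero_of_ne_bot (p := φ.perp (Submodule.span F {p, y}))
      (fun h => by rw [h] at this; simp at this; omega)
    obtain ⟨x, hx, h4⟩ : ∃ x ∈ φ.perp (Submodule.span F {p, y}), φ.B u x ≠ 0 := by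
      by_contra! h4; exact hu0 (h3.nondegOn.perp u hu h4)
    rw [φ.mem_perp_pair] at hu hx
    obtain ⟨g, hg, hg'⟩ := exists_sl_tv p (φ.B u) (φ.B_symm_zero hu.1)
    obtain ⟨c, hc⟩ := (h2 g).1 (h0.ge hg).1
    simpa [hg', h4, φ.B_symm_zero hu.2, φ.B_symm_zero hx.2, h3.Bef] using hc x y
  by_cases h3 : M ≤ similarityGroup f
  · exact Or.inl (le_antisymm (le_inf h3 hM') hM)
  obtain ⟨g, hg, hg'⟩ := SetLike.not_le_iff_exists.1 h3
  refine Or.inr (le_antisymm hM' (specialLinear_le_of_fullSub fun v =>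
    full_of_not_sim h hn' (g := glEquiv g) (fun k hk => Subgroup.mem_map.2
      ⟨φ.toGL k, hM ⟨h1 k, toGL_mem_specialLinear hk⟩, ?_⟩) (Subgroup.mem_map_of_mem _ hg)
      (fun h4 => hg' ((h2 g).2 h4)) v))
  exact LinearEquiv.ext fun x => toGL_mulVec k x

theorem sl4_9 {F : Type*} [Field F] [Fintype F] :
    ∀ (σ : F ≃+* F) (f : (Fin 4 → F) → (Fin 4 → F) → F), Cfsg.Geo.IsUnitaryForm σ f → Cfsg.Geo.IsMaximalIn (Cfsg.Geo.specialLinear (Fin 4) F) (Cfsg.Geo.similarityGroup f ⊓ Cfsg.Geo.specialLinear (Fin 4) F) :=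
  sim_unit le_rfl

end Cfsg.Agent.H08.Sl49
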