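import Mathlib
import Cfsg.Agent.H18.MdSU

/-! # Two totally isotropic planes in `SU₄` -/

set_option autoImplicit false
open Cfsg Matrix Cfsg.Geo Module H10 H16.Kl

namespace Cfsg.Agent.H08.Su45

variable {F : Type*} [Field F]

theorem prod0 {u v a b : Fin 4 → F} (h1 : u ⬝ᵥ a = 0) (h2 : u ⬝ᵥ b = 0) (h3 : v ⬝ᵥ a = 0) (h4 : v ⬝ᵥ b = 0) :
    alt6 (wd u v) * alt6 (wd a b) = 0 := by
  have e : ∀ u v : Fin 4 → F, ∀ i j, alt6 (wd u v) i j = u i * v j - v i * u j := fun u v i j => by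
    fin_cases i <;> fin_cases j <;> simp [alt6, wd, pa6, pb6] <;> ring
  ext i j
  simp only [dotProduct, Fin.sum_univ_four] at h1 h2 h3 h4
  simp only [mul_apply, e, Fin.sum_univ_four, Matrix.zero_apply]
  linear_combination (u i * b j) * h3 - (u i * a j) * h4 - (v i * b j) * h1 + (v i * a j) * h2

theorem eig {u v a b : Fin 4 → F} (h1 : u ⬝ᵥ a = 0) (h2 : u ⬝ᵥ b = 0) (h3 : v ⬝ᵥ a = 0) (h4 : v ⬝ᵥ b = 0)
    (x : Fin 3 ⊕ Fin 3 → F) : (φ6 F).B (wd a b ∘ Sum.swap) x • wd u v = (φ6 F).B (wd u v) x • (wd a b ∘ Sum.swap) := by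
  have d : du (wd a b ∘ Sum.swap) = alt6 (wd a b) := by
    rw [du, Function.comp_assoc, Sum.swap_swap_eq, Function.comp_id]
  have e0 := prod0 h1 h2 h3 h4
  have e0' := prod0 (dotProduct_comm u a ▸ h1) (dotProduct_comm v a ▸ h3) (dotProduct_comm u b ▸ h2)
    (dotProduct_comm v b ▸ h4)
  have e1 : (φ6 F).B (wd u v) (wd a b ∘ Sum.swap) = 0 := by
    simp only [dotProduct, Fin.sum_univ_four] at h1 h2 h3 h4
    simp [B6, wd, pa6, pb6]
    linear_combination (v 0 * b 0 + v 1 * b 1 + v 2 * b 2 + v 3 * b 3) * h1 -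
      (v 0 * a 0 + v 1 * a 1 + v 2 * a 2 + v 3 * a 3) * h2
  rw [← d] at e0 e0'
  generalize wd a b ∘ Sum.swap = w at *
  generalize wd u v = s at *
  have e2 := da_jor s w
  rw [e0', e1, add_zero, neg_zero, zero_smul] at e2
  have e3 := congrArg (alt6 s * ·) (da_jor w x)
  have e4 := congrArg (· * alt6 w) (ad_jor s x)
  simp only [mul_add, add_mul, ← mul_assoc, e0, zero_mul, zero_add, mul_smul_comm, mul_one] at e3
  simp only [add_mul, mul_assoc (alt6 x), e2, mul_zero, add_zero, smul_mul_assoc, one_mul] at e4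
  refine alt6_injective ?_
  rw [alt6_smul, alt6_smul, ← neg_inj, ← neg_smul, ← neg_smul, ← e3, ← e4]

theorem resc [Finite F] {q : ℕ} (hF : Nat.card F = q ^ 2) {u v : Fin 4 → F} {t : Fin 3 ⊕ Fin 3 → F}
    (hB : (φ6 F).B (wd u v) t ≠ 0) (h1 : hermForm 4 F q u u = 0) (h2 : hermForm 4 F q u v = 0)
    (h3 : hermForm 4 F q v u = 0) (h4 : hermForm 4 F q v v = 0) :
    ∃ c : F, c ≠ 0 ∧ ∀ i, (c • wd u v) i.swap = (c • wd u v) i ^ q := by
  have e := eig (u := u) (v := v) (a := fun i => conj hF (u i)) (b := fun i => conj hF (v i)) h1 h2 h3 h4 t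
  have e1 : ∀ i, wd (fun i => conj hF (u i)) (fun i => conj hF (v i)) i = conj hF (wd u v i) := fun i => by simp [wd]
  obtain ⟨l, hl⟩ : ∃ l : F, ∀ i, conj hF (wd u v i.swap) = l * wd u v i :=
    ⟨(φ6 F).B (wd (fun i => conj hF (u i)) (fun i => conj hF (v i)) ∘ Sum.swap) t / (φ6 F).B (wd u v) t, fun i => by
      have := congrFun e i
      simp only [Pi.smul_apply, smul_eq_mul, Function.comp_apply, e1] at this
      field_simp
      linear_combination -this⟩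
  obtain ⟨d, hd⟩ : ∃ d : F, d + conj hF d * l ≠ 0 := by
    by_contra! a
    obtain ⟨d, hd⟩ := exists_not_fixed hF
    have a1 := a 1
    have a2 := a d
    rw [map_one] at a1
    exact hd (show conj hF d = d by linear_combination conj hF d * a1 - a2)
  refine ⟨_, hd, fun i => ?_⟩
  have k : ∀ i, ((d + conj hF d * l) • wd u v) i = d * wd u v i + conj hF (d * wd u v i.swap) := fun i => by
    rw [map_mul, hl]; simp; ring
  rw [k, k, Sum.swap_swap, ← conj_apply hF, map_add, conj_conj, add_comm]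

theorem su4_5_of [Fintype F] {q : ℕ} (hF : Fintype.card F = q ^ 2)
    (md : ∃ (K : Subfield F) (V : Submodule K (Fin 3 ⊕ Fin 3 → F)) (φ : H10.Form K V) (_ : φ.Nondeg)
      (π : ↥(GU 4 F q ⊓ specialLinear (Fin 4) F) →* φ.Isom), Md φ (GU 4 F q ⊓ specialLinear (Fin 4) F) V.subtype π ∧
      Nat.card K = q ∧ (∀ c, c ∈ K ↔ c ^ q = c) ∧ ∀ v, v ∈ V ↔ ∀ i, v i.swap = v i ^ q) :
    4 ≤ q → ∀ D : Fin 2 → Submodule F (Fin 4 → F), Cfsg.Geo.IsMDecomposition 2 D → (∀ i, Cfsg.Geo.IsTotallySingularFor (Cfsg.hermForm 4 F q) (D i)) → Cfsg.Geo.IsMaximalIn (Cfsg.GU 4 F q ⊓ Cfsg.Geo.specialLinear (Fin 4) F) (Cfsg.Geo.decompositionStabilizer D ⊓ (Cfsg.GU 4 F q ⊓ Cfsg.Geo.specialLinear (Fin 4) F)) := by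
  intro h4 D hD ts
  have hF' : Nat.card F = q ^ 2 := by rwa [Nat.card_eq_fintype_card]
  obtain ⟨K, V, φ, _, π, m, hK, mK, mV⟩ := md
  obtain ⟨u, h0, h1, hB, k⟩ := ex_dec hD
  have a0 := (h0 (u 0)).2 ⟨1, 0, by simp⟩
  have a1 := (h0 (u 1)).2 ⟨0, 1, by simp⟩
  have a2 := (h1 (u 2)).2 ⟨1, 0, by simp⟩
  have a3 := (h1 (u 3)).2 ⟨0, 1, by simp⟩
  obtain ⟨c, c0, hc⟩ := resc hF' hB (ts 0 _ a0 _ a0) (ts 0 _ a0 _ a1) (ts 0 _ a1 _ a0) (ts 0 _ a1 _ a1)
  obtain ⟨d, d0, hd⟩ := resc hF' (t := wd (u 0) (u 1)) (by rwa [q6.B_comm]) (ts 1 _ a2 _ a2) (ts 1 _ a2 _ a3) (ts 1 _ a3 _ a2) (ts 1 _ a3 _ a3)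
  have hs := Q_wd (u 0) (u 1)
  have ht := Q_wd (u 2) (u 3)
  generalize wd (u 0) (u 1) = s at *
  generalize wd (u 2) (u 3) = t at *
  have : Module.Finite K V := Module.Finite.of_finite
  refine m.plane (x := ⟨_, (mV _).2 hc⟩) (y := ⟨_, (mV _).2 hd⟩) hs ht hB (fun z => ⟨fun hz => ?_, fun hz => ?_⟩) ?_
    (ex_sq (by omega)) (.inl (by omega)) fun g => (k g.1).symm
  · obtain ⟨a, b, e⟩ := Submodule.mem_span_pair.1 hz
    have e1 : (a / c) • c • s + (b / d) • d • t = z.1 := by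
      rw [smul_smul, smul_smul, div_mul_cancel₀ _ c0, div_mul_cancel₀ _ d0]; exact e
    have e2 : (a / c) ^ q • c • s + (b / d) ^ q • d • t = z.1 := by
      ext i
      have := (mV _).1 z.2 i.swap
      rw [Sum.swap_swap] at this
      rw [this, ← e1, Pi.add_apply, Pi.add_apply, add_pow_q hF', Pi.smul_apply _ (c • s), Pi.smul_apply _ (c • s),
        Pi.smul_apply _ (d • t), Pi.smul_apply _ (d • t), smul_eq_mul, smul_eq_mul, smul_eq_mul, smul_eq_mul, mul_pow,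
        mul_pow, ← hc, ← hd, Sum.swap_swap]
    have e3 := congrArg ((φ6 F).B s) (e2.trans e1.symm)
    have e4 := congrArg ((φ6 F).B t) (e2.trans e1.symm)
    simp only [map_add, map_smul, smul_eq_mul, q6.B_self, hs, ht, mul_zero, zero_add, add_zero, q6.B_comm t s] at e3 e4
    refine Submodule.mem_span_pair.2 ⟨⟨a / c, (mK _).2 (mul_right_cancel₀ (mul_ne_zero c0 hB) e4)⟩,
      ⟨b / d, (mK _).2 (mul_right_cancel₀ (mul_ne_zero d0 hB) e3)⟩, Subtype.ext e1⟩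
  · obtain ⟨a, b, rfl⟩ := Submodule.mem_span_pair.1 hz
    exact Submodule.mem_span_pair.2 ⟨a.1 * c, b.1 * d, by rw [mul_smul, mul_smul]; rfl⟩
  · rw [Submodule.span_le]
    rintro _ (rfl | rfl)
    · exact Submodule.mem_span_pair.2 ⟨c⁻¹, 0, by simp [c0]⟩
    · exact Submodule.mem_span_pair.2 ⟨0, d⁻¹, by simp [d0]⟩

theorem su4_5 [Fintype F] {q : ℕ} (hF : Fintype.card F = q ^ 2) :
    4 ≤ q → ∀ D : Fin 2 → Submodule F (Fin 4 → F), Cfsg.Geo.IsMDecomposition 2 D → (∀ i, Cfsg.Geo.IsTotallySingularFor (Cfsg.hermForm 4 F q) (D i)) → Cfsg.Geo.IsMaximalIn (Cfsg.GU 4 F q ⊓ Cfsg.Geo.specialLinear (Fin 4) F) (Cfsg.Geo.decompositionStabilizer D ⊓ (Cfsg.GU 4 F q ⊓ Cfsg.Geo.specialLinear (Fin 4) F)) :=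
  su4_5_of hF (H18.mdSU (by rwa [Nat.card_eq_fintype_card]))

end Cfsg.Agent.H08.Su45
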