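import Cfsg.Agent.L.Jt0
import Cfsg.Agent.H04.KN89

/-! Part R2 of the 3-local cluster of Janko-four type (namespace `H08.TR2`). -/

set_option autoImplicit false

namespace H08.TR2
open Subgroup BG
universe u

theorem r2 : L.Jt.R2Stmt.{u} := by
  intro G _ _ A N B D z δ c b v h U hU cU R hR oR
  by_cases zU : z ∈ U
  · exact fun g hg => mem_centralizer_singleton_iff.2 (mem_centralizer_iff.1 (hR hg).2 z zU).symm
  have i2 : (U.subgroupOf (A ⊓ centralizer {δ})).index = 2 := by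
    have := (U.subgroupOf (A ⊓ centralizer {δ})).index_mul_card
    rw [Nat.card_congr (subgroupOfEquivOfLe hU).toEquiv, cU, v.c32] at this
    omega
  have mm : ∀ x ∈ A ⊓ centralizer {δ}, ∀ y ∈ A ⊓ centralizer {δ}, x ∉ U → y ∉ U → x * y ∈ U := fun x i y j k l =>
    (mul_mem_iff_of_index_two i2 (a := ⟨x, i⟩) (b := ⟨y, j⟩)).2 (iff_of_false k l)
  have zV : z ∈ A ⊓ centralizer {δ} :=
    ⟨c.BA c.zB, mem_centralizer_singleton_iff.2 (mem_centralizer_singleton_iff.1 v.δz).symm⟩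
  have bk : ∀ m ∈ N, ∀ x, m * x * m⁻¹ ∈ D → x ∈ D := fun m hm x h => by simpa [mul_assoc] using c.Dc _ (inv_mem hm) _ h
  have nz : ∀ s ∈ D, s ≠ z := fun s hs q => c.zD (q ▸ hs)
  obtain ⟨s0, hs0, s0δ, t0, ht0, t0δ, st, sD⟩ := v.p1
  have st1 : s0 * t0 ≠ 1 := fun e => st (mul_left_cancel ((c.sq s0 (c.DA s0 hs0).1).trans e.symm))
  obtain ⟨a, aU, a1, aD⟩ : ∃ a ∈ U, a ≠ 1 ∧ a ∉ D := by
    by_contra n
    push Not at n
    have k : ∀ s ∈ D, s ∈ centralizer {δ} → s ∈ U := fun s hs sδ => by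
      by_contra q
      refine (v.ex s ⟨(c.DA s hs).1, sδ⟩ (c.DA s hs).2 (nz s hs)).1 hs (n _ (mm s ⟨(c.DA s hs).1, sδ⟩ z zV q zU) fun e => ?_)
      exact nz s hs (mul_right_cancel (e.trans (c.sq z zV.1).symm))
    exact sD (n _ (mul_mem (k _ hs0 s0δ) (k _ ht0 t0δ)) st1)
  have az : a ≠ z := fun e => zU (e ▸ aU)
  obtain ⟨s, hs, sδ, t, ht, e⟩ : ∃ s ∈ D, s ∈ centralizer {δ} ∧ ∃ t ∈ D, s * t = a := by
    have stz : s0 * t0 ≠ z := fun e => (v.ex s0 ⟨(c.DA s0 hs0).1, s0δ⟩ (c.DA s0 hs0).2 (nz _ hs0)).1 hs0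
      (by rwa [← e, ← mul_assoc, c.sq s0 (c.DA s0 hs0).1, one_mul])
    obtain ⟨m, hm, -, mδ, e | e⟩ := v.tr (s0 * t0) (mem_inf.2 ⟨mul_mem (c.DA s0 hs0).1 (c.DA t0 ht0).1, mul_mem s0δ t0δ⟩)
      st1 stz a (hU aU) a1 az
    · exact ⟨_, c.Dc m hm s0 hs0, mul_mem (mul_mem mδ s0δ) (inv_mem mδ), _, c.Dc m hm t0 ht0, by rw [← e]; group⟩
    · exact absurd ((v.ex a (hU aU) a1 az).2 fun q => sD (bk m hm _ (e ▸ q))) aD
  obtain ⟨m, hm, ea⟩ := c.trZ a (hU aU).1 a1 aD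
  have ez : z = m⁻¹ * a * m := by rw [← ea]; group
  have cc : ∀ x y : G, x * y = y * x → m⁻¹ * x * m * (m⁻¹ * y * m) = m⁻¹ * y * m * (m⁻¹ * x * m) := fun x y k => by
    calc _ = m⁻¹ * (x * y) * m := by group
      _ = _ := by rw [k]; group
  have aδ : a * δ = δ * a := mem_centralizer_singleton_iff.1 (hU aU).2
  have dz : m⁻¹ * δ * m * z = z * (m⁻¹ * δ * m) := by rw [ez]; exact cc _ _ aδ.symm
  have s2 := c.sq s (c.DA s hs).1
  have sW : s ∈ cj m B := mem_cj.2 (b.a _ (bk m hm _ (by simpa [mul_assoc] using hs)) (bk m hm _ (by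
    have : m * (m⁻¹ * s * m * z) * m⁻¹ = t := by
      rw [ez, ← e]
      calc _ = s * s * t := by group
        _ = t := by rw [s2, one_mul]
    rwa [this])))
  have aW : a ∈ cj m B := mem_cj.2 (ez ▸ c.zB)
  have WA : ∀ w ∈ cj m B, w ∈ A := fun w hw => by simpa [mul_assoc] using c.nM m hm _ (c.BA (mem_cj.1 hw))
  have : Fact (Nat.Prime 3) := ⟨by norm_num⟩
  have md := H04.KN89.fp 3 (g := δ) (v.δ3 ▸ pow_orderOf_eq_one δ) (cj m B) fun w hw => mem_cj.2 (by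
    have := c.nB _ (mul_mem (mul_mem (inv_mem hm) v.δN) hm) (mul_inv_eq_iff_eq_mul.2 dz) _ (mem_cj.1 hw)
    rwa [show m⁻¹ * δ * m * (m⁻¹ * w * m) * (m⁻¹ * δ * m)⁻¹ = m⁻¹ * (δ * w * δ⁻¹) * m by group] at this)
  rw [card_cj, c.cB] at md
  have sa : s ≠ a := fun q => aD (q ▸ hs)
  obtain ⟨r, rU, rW, r1, ra⟩ : ∃ r ∈ U, r ∈ cj m B ∧ r ≠ 1 ∧ r ≠ a := by
    by_cases sU : s ∈ U
    · exact ⟨s, sU, sW, (c.DA s hs).2, sa⟩
    by_contra n
    push Not at n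
    have sb : ((cj m B ⊓ centralizer {δ} : Subgroup G) : Set G) ⊆ {1, a, s, s * a} := fun x hx => by
      simp only [Set.mem_insert_iff, Set.mem_singleton_iff]
      by_cases xU : x ∈ U
      · by_cases x1 : x = 1
        exacts [.inl x1, .inr (.inl (n x xU hx.1 x1))]
      · have k := mm s ⟨(c.DA s hs).1, sδ⟩ x ⟨WA x hx.1, hx.2⟩ sU xU
        by_cases x1 : s * x = 1
        · exact .inr (.inr (.inl (mul_left_cancel (x1.trans s2.symm))))
        · refine .inr (.inr (.inr ?_))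
          rw [← n _ k (mul_mem sW hx.1) x1, ← mul_assoc, s2, one_mul]
    have c1 := Set.ncard_le_ncard sb (Set.toFinite _)
    have c3 : ({1, a, s, s * a} : Set G).ncard ≤ 4 :=
      (Set.ncard_insert_le _ _).trans (Nat.succ_le_succ ((Set.ncard_insert_le _ _).trans (Nat.succ_le_succ
        ((Set.ncard_insert_le _ _).trans (by rw [Set.ncard_singleton])))))
    have c4 : 2 < ((cj m B ⊓ centralizer {δ} : Subgroup G) : Set G).ncard :=
      (Set.two_lt_ncard_iff (Set.toFinite _)).2 ⟨1, a, s, one_mem _, ⟨aW, (hU aU).2⟩, ⟨sW, sδ⟩, a1.symm, (c.DA s hs).2.symm, sa.symm⟩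
    rw [← Nat.card_coe_set_eq] at c1 c4
    change Nat.card ↥(cj m B ⊓ centralizer {δ}) ≤ _ at c1
    change _ < Nat.card ↥(cj m B ⊓ centralizer {δ}) at c4
    unfold Nat.ModEq at md
    omega
  have key := h (m⁻¹ * δ * m) (mem_centralizer_singleton_iff.2 dz)
    (by rw [← v.δ3]; simpa using (MulAut.conj m⁻¹).orderOf_eq δ) (m⁻¹ * r * m) (mem_cj.1 rW)
    (fun q => r1 (by simpa using conj_eq_one_iff.1 (show m⁻¹ * r * m⁻¹⁻¹ = 1 by rwa [inv_inv])))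
    (fun q => ra (by rw [ez] at q; simpa using q))
    (mem_centralizer_singleton_iff.2 (cc _ _ (mem_centralizer_singleton_iff.1 (hU rU).2))) (cj m⁻¹ R) (fun x hx => by
      obtain ⟨g, hg, rfl⟩ := mem_cj'.1 hx
      rw [inv_inv]
      refine ⟨⟨mem_centralizer_singleton_iff.2 ?_, mem_centralizer_singleton_iff.2
        (cc _ _ (mem_centralizer_singleton_iff.1 (hR hg).1))⟩,
        mem_centralizer_singleton_iff.2 (cc _ _ (mem_centralizer_iff.1 (hR hg).2 r rU).symm)⟩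
      rw [ez]; exact cc _ _ (mem_centralizer_iff.1 (hR hg).2 a aU).symm) (by rwa [card_cj])
  intro g hg
  obtain ⟨k, hk⟩ := key (conj_mem_cj m⁻¹ hg)
  have : g = δ ^ k := by
    have hk' : (m⁻¹ * δ * m⁻¹⁻¹) ^ k = m⁻¹ * g * m⁻¹⁻¹ := by simpa using hk
    rw [conj_zpow] at hk'
    simpa using hk'.symm
  exact this ▸ zpow_mem v.δz k

end H08.TR2
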