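import Cfsg.Agent.L.Jt0

/-! Part R3 of the 3-local cluster of Janko-four type (namespace `H08.TR3`). -/

set_option autoImplicit false

namespace H08.TR3
open Subgroup
universe u

theorem r3 : L.Jt.R3Stmt.{u} := by
  intro G _ _ A N B D z δ c b v
  obtain ⟨s, hs, sδ, t, ht, tδ, st, sD⟩ := v.p1
  have s2 := c.sq s (c.DA s hs).1
  obtain ⟨m, hm, e⟩ := c.trZ (s * t) (mul_mem (c.DA s hs).1 (c.DA t ht).1)
    (fun e => st (mul_left_cancel (s2.trans e.symm))) sD
  have ez : z = m⁻¹ * (s * t) * m := by rw [← e]; group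
  have rD := c.Dc _ (inv_mem hm) s hs
  have k1 : s * t * δ = δ * (s * t) := mem_centralizer_singleton_iff.1 (mul_mem sδ tδ)
  have k2 : s * δ = δ * s := mem_centralizer_singleton_iff.1 sδ
  refine ⟨m⁻¹ * δ * m⁻¹⁻¹, mem_centralizer_singleton_iff.2 ?_, isConj_iff.2 ⟨_, rfl⟩, _, b.a _ rD ?_, (c.DA _ rD).2,
    fun q => c.zD (q ▸ rD), mem_centralizer_singleton_iff.2 ?_⟩
  · rw [ez]
    calc _ = m⁻¹ * (δ * (s * t)) * m := by group
      _ = _ := by rw [← k1]; group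
  · have : m⁻¹ * s * m⁻¹⁻¹ * z = m⁻¹ * t * m⁻¹⁻¹ := by
      rw [ez]
      calc _ = m⁻¹ * (s * s * t) * m := by group
        _ = _ := by rw [s2]; group
    rw [this]; exact c.Dc _ (inv_mem hm) t ht
  · calc _ = m⁻¹ * (s * δ) * m := by group
      _ = _ := by rw [k2]; group

end H08.TR3
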