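import Cfsg.Agent.H05.Tu0

/-!
# Part M of S4504: a Mackey formula
-/

set_option autoImplicit false

namespace H08.Tu
open H05.Tu Finset MulAction

universe u

theorem m : MStmt.{u} := by
  intro G _ _ p hp x h M _ ρ m hm
  classical
  have := Fintype.ofFinite (G ⧸ Subgroup.zpowers x)
  have xp : x ^ p = 1 := h.o ▸ pow_orderOf_eq_one x
  have p0 := hp.out.pos
  have h0 (y) (hy : y ∈ Subgroup.zpowers x) : ρ y m = m := by
    obtain ⟨k, rfl⟩ := (Submonoid.mem_powers_iff _ _).1 (mem_powers_iff_mem_zpowers.2 hy)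
    induction k with
    | zero => simp
    | succ k ih => rw [pow_succ, map_mul, AddMonoid.End.coe_mul, Function.comp_apply, hm, ih (Subgroup.npow_mem_zpowers _ _)]
  let t : G ⧸ Subgroup.zpowers x → M := fun c => ρ c.out m
  have t1 (g : G) : t g = ρ g m := by
    obtain ⟨⟨y, hy⟩, e⟩ := QuotientGroup.mk_out_eq_mul (Subgroup.zpowers x) g
    simp only [t, e, map_mul, AddMonoid.End.coe_mul, Function.comp_apply, h0 y hy]
  have t2 (g : G) (c) : t (g • c) = ρ g (t c) := by
    obtain ⟨k, rfl⟩ := QuotientGroup.mk_surjective c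
    rw [show g • (k : G ⧸ Subgroup.zpowers x) = (g * k : G) from rfl, t1, t1, map_mul, AddMonoid.End.coe_mul, Function.comp_apply]
  have sm (S : Finset (G ⧸ Subgroup.zpowers x)) : ∑ c ∈ S.image Quotient.out, ρ c m = ∑ c ∈ S, t c :=
    sum_image fun a _ b _ e => Quotient.out_injective e
  have key (S : Finset (G ⧸ Subgroup.zpowers x)) : (∀ c ∈ S, x • c ∈ S ∧ x • c ≠ c) → ∃ u, ∑ c ∈ S, t c = ∑ i ∈ range p, ρ (x ^ i) u := by
    induction S using Finset.strongInduction with
    | H S ih =>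
    intro hS
    obtain rfl | ⟨c, hc⟩ := S.eq_empty_or_nonempty
    · exact ⟨0, by simp⟩
    have a1 (i : ℕ) : x ^ i • c ∈ S := by
      induction i with
      | zero => simpa using hc
      | succ i ih => rw [pow_succ', mul_smul]; exact (hS _ ih).1
    have a2 : (range p).image (x ^ · • c) ⊆ S := fun d hd => by
      obtain ⟨i, -, rfl⟩ := mem_image.1 hd
      exact a1 i
    have a3 : Set.InjOn (x ^ · • c) (range p : Set ℕ) := fun i hi j hj e => by
      have q : Function.minimalPeriod (x • ·) c = p := Function.minimalPeriod_eq_prime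
        (by rw [Function.IsPeriodicPt, Function.IsFixedPt, smul_iterate_apply, xp, one_smul]) (hS c hc).2
      refine Function.iterate_injOn_Iio_minimalPeriod (f := (x • ·)) (x := c) (by simpa [q] using hi) (by simpa [q] using hj) ?_
      simpa only [smul_iterate_apply] using e
    obtain ⟨u, hu⟩ := ih (S \ (range p).image (x ^ · • c)) (sdiff_ssubset a2 ⟨c, mem_image.2 ⟨0, mem_range.2 p0, by simp⟩⟩) fun d hd => by
      obtain ⟨d1, d2⟩ := mem_sdiff.1 hd
      refine ⟨mem_sdiff.2 ⟨(hS d d1).1, fun q => d2 ?_⟩, (hS d d1).2⟩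
      obtain ⟨i, -, e⟩ := mem_image.1 q
      refine mem_image.2 ⟨(p - 1 + i) % p, mem_range.2 (Nat.mod_lt _ p0), ?_⟩
      rw [← pow_eq_pow_mod _ xp, pow_add, mul_smul, e, ← mul_smul, ← pow_succ, Nat.sub_add_cancel p0, xp, one_smul]
    refine ⟨u + t c, ?_⟩
    rw [← sum_sdiff a2, hu, sum_image a3]
    simp only [map_add, sum_add_distrib, t2]
  obtain ⟨u, hu⟩ := key (univ.filter fun c => ¬ x • c = c) fun c hc =>
    ⟨mem_filter.2 ⟨mem_univ _, fun e => (mem_filter.1 hc).2 (smul_left_cancel x e)⟩, (mem_filter.1 hc).2⟩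
  refine ⟨(univ.filter fun c : G ⧸ Subgroup.zpowers x => x • c = c).image Quotient.out,
    (univ : Finset (G ⧸ Subgroup.zpowers x)).image Quotient.out, u, fun n hn => ?_, ?_, fun g => ?_, ?_⟩
  · obtain ⟨c, hc, rfl⟩ := mem_image.1 hn
    have e := (mem_filter.1 hc).2
    rw [← QuotientGroup.out_eq' c, show x • (c.out : G ⧸ Subgroup.zpowers x) = (x * c.out : G) from rfl, eq_comm, QuotientGroup.eq] at e
    refine (Subgroup.inv_mem_iff _).1 (Subgroup.mem_normalizer_fintype fun y hy => ?_)
    obtain ⟨k, rfl⟩ := Subgroup.mem_zpowers_iff.1 hy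
    rw [← conj_zpow]
    exact zpow_mem (by simpa [mul_assoc] using e) k
  · have cP : Nat.card (Subgroup.zpowers x) = p := by rw [Nat.card_zpowers, h.o]
    have e := (IsPGroup.of_card (p := p) (n := 1) (by rw [cP, pow_one])).card_modEq_card_fixedPoints (G := Subgroup.zpowers x)
      (G ⧸ Subgroup.zpowers x)
    have e2 : Nat.card (fixedPoints (Subgroup.zpowers x) (G ⧸ Subgroup.zpowers x)) =
        #(univ.filter fun c : G ⧸ Subgroup.zpowers x => x • c = c) := by
      rw [← Nat.card_eq_finsetCard]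
      refine Nat.card_congr (Equiv.subtypeEquivRight fun c => ⟨fun q => mem_filter.2 ⟨mem_univ _, q ⟨x, Subgroup.mem_zpowers x⟩⟩, fun q y => ?_⟩)
      exact (Subgroup.zpowers_le (H := stabilizer G c)).2 (mem_filter.1 q).2 y.2
    rw [card_image_of_injective _ Quotient.out_injective, ← e2, ← e.dvd_iff dvd_rfl]
    intro q
    refine h.sq ?_
    rw [← (Subgroup.zpowers x).card_mul_index, cP, sq]
    exact mul_dvd_mul_left _ q
  · rw [sm, map_sum]
    simp only [← t2]
    exact Equiv.sum_comp (toPerm g) t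
  · rw [sm, sm, ← hu, sum_filter_add_sum_filter_not]

end H08.Tu
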