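import Cfsg.Agent.H23.Y0
import Cfsg.Agent.H26.JE
import Cfsg.Agent.H18.YH

/-! Part Pa of S5569 from the linear lemma `Hid` (namespace `H08.YPa`). -/

set_option autoImplicit false

namespace H08.YPa
open Cfsg BG Subgroup H01.XS Cfsg.Agent.H06.J Cfsg.Agent.H23.K
universe u

def Hid : Prop := ∀ {V : Type u} [AddCommGroup V] [Module (ZMod 2) V] [Finite V] {Γ : Type u} [Group Γ] [Finite Γ]
  {T : Γ → V →+ V} {d : Γ} {M K Y : Subgroup Γ} {β : V →+ V →+ ZMod 2} {q : V → ZMod 2} {B : AddSubgroup V},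
  Gj T d M β q → Hx d K Y → K ≤ M → Pj T d K Y q B → Pi T Y B → (∀ y ∈ Y, y ≠ 1 → {v | T y v = v}.ncard = 256) →
  ∀ y ∈ Y, y ≠ 1 → ∀ v, T y v = v → v ∉ B → ∃ y2 ∈ Y, β (v + T y2 v) (T d v) ≠ 0

theorem pa (hid : Hid.{u}) : Cfsg.Agent.H23.Y.PaStmt.{u} := by
  intro G _ _ z Q V _ _ _ Γ _ _ f π ν T d M β q s K Y B A δ x c2 c256 t tz t2 tY tQ tA
  have l := s.md.lx
  have g := s.gm
  have two := s.md.two
  have y1 : π t ≠ 1 := fun e => tQ ((s.ker t tz).1 e)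
  have y2 := x.hk.hx.Y2 _ tY
  obtain ⟨c, cA, cδ, πc⟩ := c2.YA _ tY
  have cz := x.Az cA
  have cm : ∀ a ∈ A, ∀ b ∈ A, a * b = b * a := fun a i b j => by
    rw [← inv_eq_of_mul_eq_one_right (x.A2 _ (mul_mem i j)), mul_inv_rev, inv_eq_of_mul_eq_one_right (x.A2 _ i),
      inv_eq_of_mul_eq_one_right (x.A2 _ j)]
  have DA : ∀ w ∈ s.md.pull B, w ∈ A := fun w hw => (c2.e3.ge hw).1
  obtain ⟨p, pQ, rfl⟩ : ∃ p ∈ Q, t = p * c := ⟨t * c, (s.ker _ (mul_mem tz cz)).1 (by rw [H26.JE.mul s _ tz _ cz, πc, y2]),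
    by rw [mul_assoc, x.A2 c cA, mul_one]⟩
  have uB : ν p ∉ B := fun h => tA (mul_mem (DA p ⟨pQ, h⟩) cA)
  have ci : c⁻¹ = c := inv_eq_of_mul_eq_one_right (x.A2 c cA)
  have nq : ∀ a ∈ C_[z], ∀ r ∈ Q, a * r * a⁻¹ ∈ Q := fun a i r j => (mem_normalizer_iff.1 (l.norm i) r).1 j
  have pp : p * (c * p * c⁻¹) = 1 := by rw [ci, ← t2]; simp only [mul_assoc]
  have fu : T (π c) (ν p) = ν p := by
    have := s.md.mul _ pQ _ (nq c cz p pQ)
    rw [pp, s.md.one, ← s.act c cz p pQ] at this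
    exact add_left_cancel (this.symm.trans (two _).symm)
  have cp : c * p * c⁻¹ = p := c2.cz c cz cδ p pQ fu
  have cp' : Commute c p := mul_inv_eq_iff_eq_mul.1 cp
  have qu : q (ν p) = 0 := (s.sq p pQ).2 (by rwa [cp] at pp)
  rw [← πc] at y1 y2 tY
  have ct : ∀ a ∈ A, a ∈ C_[p * c] ↔ Commute p a := fun a i => by
    rw [mem_centralizer_singleton_iff, mul_assoc, ← cm a i c cA, ← mul_assoc, ← mul_assoc, mul_left_inj]
    exact ⟨fun e => e.symm, fun e => e.eq.symm⟩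
  have eW : s.md.pull B ⊓ C_[p * c] = s.md.pull (B ⊓ (β (ν p)).ker) := Subgroup.ext fun w =>
    ⟨fun h => ⟨h.1.1, h.1.2, (s.b p pQ w h.1.1).2 ((ct w (DA w h.1)).1 h.2)⟩,
      fun h => ⟨⟨h.1, h.2.1⟩, (ct w (DA w ⟨h.1, h.2.1⟩)).2 ((s.b p pQ w h.1).1 h.2.2)⟩⟩
  have iso : ∀ u ∈ B, ∀ v ∈ B, β u v = 0 := fun u i v j => by
    have := g.pol u v
    rwa [x.pj.qB _ (add_mem i j), x.pj.qB _ i, x.pj.qB _ j, zero_add, zero_add, eq_comm] at this
  obtain ⟨b0, b0B, b0n⟩ : ∃ b ∈ B, β (ν p) b ≠ 0 := by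
    by_contra n
    push Not at n
    exact uB (g.toQF.perp iso (by rw [x.pj.cB]; norm_num) n)
  have c32 : Nat.card ↥(B ⊓ (β (ν p)).ker) = 32 := by
    have a := ((β (ν p)).comp B.subtype).ker.card_mul_index
    have e : ((β (ν p)).comp B.subtype).ker = (B ⊓ (β (ν p)).ker).addSubgroupOf B :=
      AddSubgroup.ext fun v => ⟨fun h => ⟨v.2, h⟩, fun h => h.2⟩
    have r : ((β (ν p)).comp B.subtype).range = ⊤ := top_le_iff.1 fun k _ => by
      have : ∀ a b : ZMod 2, a ≠ 0 → b = 0 ∨ b = a := by decide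
      rcases this _ k b0n with rfl | rfl
      exacts [zero_mem _, ⟨⟨b0, b0B⟩, rfl⟩]
    rw [AddSubgroup.index_ker, r, AddSubgroup.card_top, Nat.card_zmod, e,
      Nat.card_congr (AddSubgroup.addSubgroupOfEquivOfLe inf_le_left).toEquiv, x.pj.cB] at a
    omega
  have c64 : Nat.card ↥(s.md.pull B ⊓ C_[p * c]) = 64 := by rw [eW, s.md.card_pull, c32]
  have p4 : ∀ a ∈ A ⊓ C_[p * c], a ∉ s.md.pull B → π a = π c := fun a i n => by
    by_contra k
    have a1 : π a ≠ 1 := fun e => n (c2.e3.le ⟨i.1, (s.ker a (x.Az i.1)).1 e⟩)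
    refine uB (x.pi.two _ (x.AY a i.1) _ tY a1 y1 k _ ?_ fu)
    rw [s.act a (x.Az i.1) p pQ, ← ((ct a i.1).1 i.2).eq, mul_inv_cancel_right]
  have cD : c ∉ s.md.pull B := fun h => y1 ((s.ker c cz).2 h.1)
  have cT : c ∈ C_[p * c] := (ct c cA).2 cp'.symm
  let N : V →+ V := AddMonoidHom.id V + T (π c)
  have hN : ∀ v, N v = v + T (π c) v := fun _ => rfl
  have c16 : Nat.card N.range = 16 := by
    have a := N.ker.card_mul_index
    have e : Nat.card N.ker = 256 := by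
      rw [← c256 _ tY y1, ← Nat.card_coe_set_eq]
      refine congrArg (fun S : Set V => Nat.card S) (Set.ext fun v => ⟨fun h => ?_, fun h => ?_⟩ : (N.ker : Set V) = _)
      · have h' : v + T (π c) v = 0 := h
        show T (π c) v = v
        linear_combination (norm := abel) h' - two v
      · show v + T (π c) v = 0
        rw [show T (π c) v = v from h, two]
    rw [AddSubgroup.index_ker, e, g.card] at a
    omega
  have pU : ∀ u, T (π c) u = u → ∀ v, β u (N v) = 0 := fun u h v => by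
    have := g.toQF.inv (g.qT (π c)) u v
    rw [h] at this
    rw [hN, map_add, this]; exact CharTwo.add_self_eq_zero _
  have UB : N.range ≤ B ⊓ (β (ν p)).ker := by
    rintro _ ⟨v, rfl⟩; exact ⟨x.pj.cm _ tY v, pU _ fu v⟩
  have QN : ∀ r ∈ Q, r ∈ N_(A) := fun r i => (c2.mN r (l.le i)).2 fun v j => by rwa [(s.ker r (l.le i)).2 i, g.one]
  have nr : ∀ a ∈ C_[z], π a = π c → ∀ r ∈ Q, r * a * r⁻¹ * a⁻¹ ∈ Q ∧ ν (r * a * r⁻¹ * a⁻¹) = N (ν r) := fun a i e r j => by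
    rw [show r * a * r⁻¹ * a⁻¹ = r * (a * r⁻¹ * a⁻¹) by group]
    exact ⟨mul_mem j (nq a i _ (inv_mem j)), by
      rw [s.md.mul _ j _ (nq a i _ (inv_mem j)), ← s.act a i _ (inv_mem j), s.md.inv j, e, hN]⟩
  refine ⟨?_, c64, fun w hw => ?_, fun a i n => ?_, c, cA, cδ, cD, fun c' hc' => ?_⟩
  · have e : ((A ⊓ C_[p * c] : Subgroup G) : Set G) =
        ↑(s.md.pull B ⊓ C_[p * c]) ∪ (c * ·) '' ↑(s.md.pull B ⊓ C_[p * c]) := Set.ext fun a => ⟨fun i => by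
      by_cases n : a ∈ s.md.pull B
      · exact .inl ⟨n, i.2⟩
      · refine .inr ⟨c * a, ⟨c2.e3.le ⟨mul_mem cA i.1, (s.ker _ (mul_mem cz (x.Az i.1))).1 ?_⟩, mul_mem cT i.2⟩,
          by simp only [← mul_assoc, x.A2 c cA, one_mul]⟩
        rw [H26.JE.mul s _ cz _ (x.Az i.1), p4 a i n, y2], by
      rintro (h | ⟨w, h, rfl⟩)
      exacts [⟨DA a h.1, h.2⟩, ⟨mul_mem cA (DA w h.1), mul_mem cT h.2⟩]⟩
    have dj : Disjoint ((s.md.pull B ⊓ C_[p * c] : Subgroup G) : Set G) ((c * ·) '' ↑(s.md.pull B ⊓ C_[p * c])) :=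
      Set.disjoint_left.2 (by
        rintro _ h ⟨w, k, rfl⟩
        exact cD (((s.md.pull B).mul_mem_cancel_right k.1).1 h.1))
    have := Set.ncard_union_eq dj (Set.toFinite _) (Set.toFinite _)
    rw [← e, Set.ncard_image_of_injective _ (mul_right_injective c), ← Nat.card_coe_set_eq, ← Nat.card_coe_set_eq] at this
    exact this.trans (by rw [SetLike.coe_sort_coe, c64])
  · have wt : w * (p * c) = p * c * w := mem_centralizer_singleton_iff.1 hw.2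
    have adj : ∀ r ∈ N_(A), ∀ w' ∈ Q, ν w' = ν w → r * (p * c) * r⁻¹ = w' * (p * c) →
        ∃ r ∈ N_(A), r * (p * c) * r⁻¹ = p * c * w := fun r i w' j e k => by
      rcases s.md.eq j hw.1.1 e with rfl | rfl
      · exact ⟨r, i, k.trans wt⟩
      obtain ⟨r0, r0Q, rfl⟩ := s.md.sur b0
      have r0A := DA r0 ⟨r0Q, b0B⟩
      have k0 : r0 * p = z * p * r0 := (l.cm r0Q pQ).resolve_left fun k => b0n ((s.b p pQ r0 r0Q).2 k.symm)
      have z0 : r0 * z = z * r0 := mem_centralizer_singleton_iff.1 (l.le r0Q)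
      have zw : w * z = z * w := mem_centralizer_singleton_iff.1 (l.le hw.1.1)
      refine ⟨r0 * r, mul_mem (QN r0 r0Q) i, ?_⟩
      calc _ = r0 * (r * (p * c) * r⁻¹) * r0⁻¹ := by group
        _ = r0 * z * w * p * c * r0⁻¹ := by rw [k]; group
        _ = z * (w * z) * p * (r0 * c) * r0⁻¹ := by
          rw [z0, mul_assoc z r0, cm r0 r0A w (DA w hw.1), mul_assoc z, mul_assoc w, k0]; group
        _ = z * z * (w * (p * c)) := by rw [zw, cm r0 r0A c cA]; group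
        _ = _ := by rw [l.zz, one_mul, wt]
    have πt : π (p * c) = π c := by rw [H26.JE.mul s _ (l.le pQ) _ cz, (s.ker p (l.le pQ)).2 pQ, one_mul]
    have wB : ν w ∈ B ⊓ (β (ν p)).ker := (eW.le hw).2
    by_cases k : ν w ∈ N.range
    · obtain ⟨v, e⟩ := k
      obtain ⟨r, rQ, rfl⟩ := s.md.sur v
      exact adj r (QN r rQ) _ (nr _ tz πt r rQ).1 ((nr _ tz πt r rQ).2.trans e) (by group)
    obtain ⟨y, hy, hn⟩ := hid g x.hk.hx x.hk.KM x.pj x.pi c256 _ tY y1 _ fu uB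
    have nB : ν p + T y (ν p) ∈ B ⊓ (β (ν p)).ker := ⟨x.pj.cm y hy _, by
      have := g.pol (ν p) (T y (ν p))
      rw [x.pj.qB _ (x.pj.cm y hy _), g.qT, qu, zero_add, zero_add] at this
      show β _ _ = 0
      rw [map_add, g.toQF.alt, ← this, zero_add]⟩
    have nU : ν p + T y (ν p) ∉ N.range := by
      rintro ⟨v, e⟩
      refine hn ?_
      rw [← e, g.toQF.sym]
      exact pU _ (by rw [← g.mul, g.Md _ (x.hk.KM (x.hk.hx.YK tY)), g.mul, fu]) v
    have i2 : (N.range.addSubgroupOf (B ⊓ (β (ν p)).ker)).index = 2 := by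
      have := (N.range.addSubgroupOf (B ⊓ (β (ν p)).ker)).index_mul_card
      rw [Nat.card_congr (AddSubgroup.addSubgroupOfEquivOfLe UB).toEquiv, c16, c32] at this
      omega
    obtain ⟨v, e⟩ : ν w + (ν p + T y (ν p)) ∈ N.range :=
      (AddSubgroup.add_mem_iff_of_index_two i2 (a := ⟨_, wB⟩) (b := ⟨_, nB⟩)).2 (iff_of_false k nU)
    obtain ⟨r, rQ, rfl⟩ := s.md.sur v
    obtain ⟨a, aA, -, rfl⟩ := c2.YA y hy
    have w2 : a * p * a⁻¹ * p⁻¹ ∈ Q := mul_mem (nq a (x.Az aA) p pQ) (inv_mem pQ)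
    have w3 := nq r (l.le rQ) _ w2
    refine adj (r * a) (mul_mem (QN r rQ) (le_normalizer aA)) _ (mul_mem w3 (nr _ tz πt r rQ).1) ?_ ?_
    · rw [s.md.mul _ w3 _ (nr _ tz πt r rQ).1, (nr _ tz πt r rQ).2, e, s.md.cq rQ w2,
        s.md.mul _ (nq a (x.Az aA) p pQ) _ (inv_mem pQ), s.md.inv pQ, ← s.act a (x.Az aA) p pQ]
      linear_combination (norm := abel) two (ν p) + two (T (π a) (ν p))
    · calc _ = r * a * p * (c * a⁻¹) * r⁻¹ := by group
        _ = _ := by rw [cm c cA _ (inv_mem aA)]; group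
  · refine (s.ker _ (mul_mem tz (x.Az i.1))).1 ?_
    rw [H26.JE.mul s _ tz _ (x.Az i.1), H26.JE.mul s _ (l.le pQ) _ cz, (s.ker p (l.le pQ)).2 pQ, one_mul, p4 a i n, y2]
  · have zD : z ∈ s.md.pull B := ⟨l.aes.mem, s.md.zz ▸ zero_mem _⟩
    have c'A : c' ∈ A := by rcases hc' with rfl | rfl; exacts [cA, mul_mem cA (DA z zD)]
    have c'T : c' ∈ C_[p * c] := by
      rcases hc' with rfl | rfl
      exacts [cT, mul_mem cT (mem_centralizer_singleton_iff.2 (mem_centralizer_singleton_iff.1 tz).symm)]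
    have πc' : π c' = π c := by
      rcases hc' with rfl | rfl
      · rfl
      · rw [H26.JE.mul s _ cz _ (l.le l.aes.mem), (s.ker z (l.le l.aes.mem)).2 l.aes.mem, mul_one]
    have sb : (N.range : Set V) ⊆ (fun x => ν (x * c'⁻¹)) '' {x | p * c * x = x * (p * c) ∧ ∃ r ∈ Q, x = r * c' * r⁻¹} := by
      rintro _ ⟨v, rfl⟩
      obtain ⟨r, rQ, rfl⟩ := s.md.sur v
      obtain ⟨k1, k2⟩ := nr c' (x.Az c'A) πc' r rQ
      refine ⟨r * c' * r⁻¹, ⟨?_, r, rQ, rfl⟩, k2⟩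
      have := mul_mem (eW.ge ⟨k1, k2 ▸ UB ⟨_, rfl⟩⟩).2 c'T
      rw [inv_mul_cancel_right] at this
      exact (mem_centralizer_singleton_iff.1 this).symm
    have := (Set.ncard_le_ncard sb (Set.toFinite _)).trans (Set.ncard_image_le (Set.toFinite _))
    rwa [← Nat.card_coe_set_eq, SetLike.coe_sort_coe, c16] at this

theorem pa' : Cfsg.Agent.H23.Y.PaStmt.{u} :=
  pa fun g x KM p i c _ hy n _ f b => H18.YH.hx g x KM p i c hy n f b

end H08.YPa
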