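import Cfsg.Agent.H23.Y0
import Cfsg.Agent.H10.FzF

/-! Part Sg of S5569 (namespace `H08.YS`). -/

set_option autoImplicit false

namespace H08.YS
open Subgroup
universe u

theorem sg : Cfsg.Agent.H23.Y.SgStmt.{u} := by
  intro G _ _ A N B D z t Ω τ σ e p7 h r he cN tN t2 big
  have : Finite Ω := Finite.of_equiv _ e.symm
  let φ : N →* Cfsg.M24 := (e.permCongrHom.toMonoidHom.comp σ).codRestrict _ he
  have φ1 : ∀ m, φ m = 1 ↔ m.1 ∈ A := fun m =>
    (Subtype.ext_iff.trans (e.permCongrHom.map_eq_one_iff (x := σ m))).trans (H10.FzF.ker h r m)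
  have su : Function.Surjective φ := by
    have a := φ.ker.card_mul_index
    rw [index_ker, show φ.ker = A.subgroupOf N from Subgroup.ext φ1, Nat.card_congr (subgroupOfEquivOfLe h.AM).toEquiv,
      h.cA, cN] at a
    have c : Nat.card Cfsg.M24 = 244823040 := Cfsg.Agent.S0364.result
    exact MonoidHom.range_eq_top.1 (eq_top_of_card_eq _ (by omega))
  have s2 : σ ⟨t, tN⟩ * σ ⟨t, tN⟩ = 1 := by rw [← map_mul, ← map_one σ]; exact congrArg σ (Subtype.ext t2)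
  have s3 : ∀ i, σ ⟨t, tN⟩ (σ ⟨t, tN⟩ i) = i := fun i => congrArg (· i) s2
  obtain ⟨i, hi⟩ : ∃ i, σ ⟨t, tN⟩ i = i := by
    by_contra n
    push Not at n
    let ρ := Finite.equivFin Ω
    have sb : {x | x ∈ D ∧ t * x = x * t} ⊆ (fun i => τ i (σ ⟨t, tN⟩ i)) '' {i | ρ i < ρ (σ ⟨t, tN⟩ i)} := by
      rintro x ⟨xD, c⟩
      obtain ⟨i, j, ij, rfl⟩ := r.surj x xD
      have k := (r.inj i j _ _ ij ((mul_inv_eq_iff_eq_mul.2 c).symm.trans (r.act ⟨t, tN⟩ i j))).resolve_left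
        fun k => n i k.1.symm
      rcases lt_or_gt_of_ne (ρ.injective.ne ij) with l | l
      · exact ⟨i, by simpa [← k.2] using l, by simp only [← k.2]⟩
      · exact ⟨j, by simpa [← k.1] using l, by simp only [← k.1]; exact r.symm _ _⟩
    have c1 := (Set.ncard_le_ncard sb (Set.toFinite _)).trans (Set.ncard_image_le (Set.toFinite _))
    have dj : Disjoint {i | ρ i < ρ (σ ⟨t, tN⟩ i)} (σ ⟨t, tN⟩ '' {i | ρ i < ρ (σ ⟨t, tN⟩ i)}) :=
      Set.disjoint_left.2 (by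
        rintro _ a ⟨i, b, rfl⟩
        simp only [Set.mem_ofPred_eq, s3] at a b
        exact lt_asymm a b)
    have c2 := Set.ncard_union_eq dj (Set.toFinite _) (Set.toFinite _)
    rw [Set.ncard_image_of_injective _ (σ ⟨t, tN⟩).injective] at c2
    have c3 := Set.ncard_le_ncard (Set.subset_univ ({i | ρ i < ρ (σ ⟨t, tN⟩ i)} ∪ σ ⟨t, tN⟩ '' {i | ρ i < ρ (σ ⟨t, tN⟩ i)}))
      (Set.toFinite _)
    rw [Set.ncard_univ] at c3
    have c4 := r.card
    omega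
  obtain ⟨g, g1, g7, gc⟩ := p7 (φ ⟨t, tN⟩) (by rw [← map_mul, ← map_one φ]; exact congrArg φ (Subtype.ext t2))
    ⟨e i, by
      change e.permCongr (σ ⟨t, tN⟩) (e i) = e i
      simp [hi]⟩
  obtain ⟨g, rfl⟩ := su g
  refine ⟨g, g.2, fun k => g1 ((φ1 g).2 k), (φ1 (g ^ 7)).1 (by rw [map_pow, g7]),
    (φ1 ((⟨t, tN⟩ : N)⁻¹ * (g * ⟨t, tN⟩ * g⁻¹))).1 ?_⟩
  rw [map_mul, map_mul, map_mul, map_inv, map_inv, gc]; group

end H08.YS
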